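import Cfsg.Agent.H20.Cyclic.Stable

/-!
# Simple modules above the simple modules of the stabiliser
-/

set_option autoImplicit false
set_option linter.unusedSectionVars false
set_option maxHeartbeats 1000000

namespace Cfsg.Agent.H20.Cyclic

open Module Cfsg.Agent.H22
open Cfsg.Agent.H43.D1 (IsIrred)

variable {k : Type*} [Field k] {G : Type*} [Group G]

section Quot

variable {V : Type*} [AddCommGroup V] [Module k V]

/-- The representation on an invariant subspace modulo an invariant subspace of it. -/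
noncomputable def sectionRep (ρ : G →* Module.End k V) (A B : Submodule k V)
    (hA : ∀ g, ∀ v ∈ A, ρ g v ∈ A) (hB : ∀ g, ∀ v ∈ B, ρ g v ∈ B) :
    G →* Module.End k (A ⧸ B.comap A.subtype) where
  toFun g := (B.comap A.subtype).mapQ (B.comap A.subtype) ((ρ g).restrict (hA g))
    (fun v hv => hB g (v : V) hv)
  map_one' := by
    apply Submodule.linearMap_qext
    refine LinearMap.ext fun v => ?_
    show Submodule.Quotient.mk ((ρ 1).restrict (hA 1) v) = Submodule.Quotient.mk v
    congr 1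
    exact Subtype.ext (by simp)
  map_mul' a b := by
    apply Submodule.linearMap_qext
    refine LinearMap.ext fun v => ?_
    show Submodule.Quotient.mk ((ρ (a * b)).restrict (hA (a * b)) v) =
      Submodule.Quotient.mk ((ρ a).restrict (hA a) ((ρ b).restrict (hA b) v))
    congr 1
    exact Subtype.ext (by simp)

theorem sectionRep_mk (ρ : G →* Module.End k V) (A B : Submodule k V)
    (hA : ∀ g, ∀ v ∈ A, ρ g v ∈ A) (hB : ∀ g, ∀ v ∈ B, ρ g v ∈ B) (g : G) (v : A) :
    sectionRep ρ A B hA hB g (Submodule.Quotient.mk v) =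
      Submodule.Quotient.mk ⟨ρ g v, hA g v v.2⟩ := rfl

theorem act_mem [Finite G] (ρ : G →* Module.End k V) (A : Submodule k V)
    (hA : ∀ g, ∀ v ∈ A, ρ g v ∈ A) (a : MonoidAlgebra k G) {v : V} (hv : v ∈ A) :
    act ρ a v ∈ A :=
  act_mem_of_supp ρ (fun x _ => Subgroup.mem_top x) A (fun c _ => hA c) hv

theorem act_sectionRep [Finite G] (ρ : G →* Module.End k V) (A B : Submodule k V)
    (hA : ∀ g, ∀ v ∈ A, ρ g v ∈ A) (hB : ∀ g, ∀ v ∈ B, ρ g v ∈ B) (a : MonoidAlgebra k G) (v : A) :
    act (sectionRep ρ A B hA hB) a (Submodule.Quotient.mk v) =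
      Submodule.Quotient.mk ⟨act ρ a v, act_mem ρ A hA a v.2⟩ := by
  induction a using MonoidAlgebra.induction_on with
  | of g => simp [MonoidAlgebra.of_apply, sectionRep_mk]
  | add a b ha hb =>
    simp only [map_add, LinearMap.add_apply, ha, hb, ← Submodule.Quotient.mk_add]
    rfl
  | smul r a ha =>
    simp only [map_smul, LinearMap.smul_apply, ha, ← Submodule.Quotient.mk_smul]
    rfl

theorem isIrred_sectionRep (ρ : G →* Module.End k V) (A B : Submodule k V)
    (hA : ∀ g, ∀ v ∈ A, ρ g v ∈ A) (hB : ∀ g, ∀ v ∈ B, ρ g v ∈ B) (hlt : B < A)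
    (hmax : ∀ W : Submodule k V, (∀ g, ∀ v ∈ W, ρ g v ∈ W) → B ≤ W → W ≤ A → W = B ∨ W = A) :
    IsIrred (sectionRep ρ A B hA hB) := by
  obtain ⟨a, haA, haB⟩ := SetLike.exists_of_lt hlt
  refine ⟨⟨Submodule.Quotient.mk ⟨a, haA⟩, 0, ?_⟩, fun W hW => ?_⟩
  · rw [ne_eq, Submodule.Quotient.mk_eq_zero]
    exact haB
  set W' : Submodule k V := (W.comap (B.comap A.subtype).mkQ).map A.subtype with hW'
  have hinv : ∀ g, ∀ v ∈ W', ρ g v ∈ W' := by
    rintro g _ ⟨v, hv, rfl⟩
    exact ⟨⟨ρ g v, hA g v v.2⟩, hW g _ hv, rfl⟩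
  have hBW : B ≤ W' := fun b hb => ⟨⟨b, hlt.le hb⟩, by
    show Submodule.Quotient.mk _ ∈ W
    rw [(Submodule.Quotient.mk_eq_zero _).2 (show (⟨b, hlt.le hb⟩ : A) ∈ B.comap A.subtype from hb)]
    exact W.zero_mem, rfl⟩
  rcases hmax W' hinv hBW (Submodule.map_subtype_le _ _) with h | h
  · left
    rw [eq_bot_iff]
    intro x hx
    obtain ⟨v, rfl⟩ := Submodule.Quotient.mk_surjective _ x
    rw [Submodule.mem_bot, Submodule.Quotient.mk_eq_zero]
    show (v : V) ∈ B
    rw [← h]
    exact ⟨v, hx, rfl⟩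
  · right
    rw [eq_top_iff]
    intro x _
    obtain ⟨v, rfl⟩ := Submodule.Quotient.mk_surjective _ x
    obtain ⟨w, hw, hwv⟩ : (v : V) ∈ W' := h.symm ▸ v.2
    rwa [← Subtype.val_injective (a₁ := w) (a₂ := v) hwv]

/-- A functional on a family of vectors, compatible with a subspace, extends killing it. -/
theorem exists_functional {X U W : Type*} [AddCommGroup X] [Module k X] [AddCommGroup U]
    [Module k U] [AddCommGroup W] [Module k W] (S : Submodule k X) (f : X →ₗ[k] U) (e : X →ₗ[k] W)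
    (Q : Submodule k U) (h : ∀ v ∈ S, f v ∈ Q → e v = 0) :
    ∃ β : U →ₗ[k] W, (∀ u ∈ Q, β u = 0) ∧ ∀ v ∈ S, β (f v) = e v := by
  set g : S →ₗ[k] U ⧸ Q := Q.mkQ ∘ₗ f ∘ₗ S.subtype with hg
  set e' : S →ₗ[k] W := e ∘ₗ S.subtype with he'
  have hker : LinearMap.ker g ≤ LinearMap.ker e' := by
    intro v hv
    rw [LinearMap.mem_ker] at hv ⊢
    exact h v v.2 ((Submodule.Quotient.mk_eq_zero Q).1 hv)
  obtain ⟨h', hh'⟩ := (((LinearMap.ker g).liftQ e' hker) ∘ₗ
    g.quotKerEquivRange.symm.toLinearMap).exists_extend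
  refine ⟨h' ∘ₗ Q.mkQ, fun u hu => ?_, fun v hv => ?_⟩
  · rw [LinearMap.comp_apply, Submodule.mkQ_apply, (Submodule.Quotient.mk_eq_zero Q).2 hu, map_zero]
  · have := LinearMap.congr_fun hh' ⟨g ⟨v, hv⟩, LinearMap.mem_range_self g _⟩
    simp only [LinearMap.comp_apply, Submodule.subtype_apply, LinearEquiv.coe_coe,
      LinearMap.quotKerEquivRange_symm_apply_image, Submodule.mkQ_apply,
      Submodule.liftQ_apply] at this
    exact this

end Quot

variable [Finite G] [IsAlgClosed k]

namespace Frame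

variable (F : Frame k G) {W : Type*} [AddCommGroup W] [Module k W] [FiniteDimensional k W]

/-- The linear extension of a representation of `T` to the group algebra. -/
noncomputable def actT (τ : F.T →* Module.End k W) : MonoidAlgebra k G →ₗ[k] Module.End k W :=
  haveI := Fintype.ofFinite F.T
  { toFun := fun a => ∑ t : F.T, a.coeff (t : G) • τ t
    map_add' := fun a b => by simp [add_smul, Finset.sum_add_distrib]
    map_smul' := fun r a => by simp [Finset.smul_sum, smul_smul] }

theorem actT_apply [Fintype F.T] (τ : F.T →* Module.End k W) (a : MonoidAlgebra k G) :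
    F.actT τ a = ∑ t : F.T, a.coeff (t : G) • τ t := by
  show @Finset.sum _ _ _ (@Finset.univ _ (Fintype.ofFinite F.T)) _ = _
  exact Finset.sum_congr (Finset.ext fun _ => by simp) fun _ _ => rfl

/-- A simple module of the stabiliser lies in the stable top of a simple module of every central
idempotent of the group acting on it as one. -/
theorem exists_irred_above (τ : F.T →* Module.End k W) (hτ : IsIrred τ)
    (hε : F.actT τ F.ε = 1) (hπ : F.actT τ F.π = 0) (εB : MonoidAlgebra k G)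
    (hBc : IsCent ⊤ εB) (hBi : εB * εB = εB) (hB : F.actT τ εB = 1) :
    ∃ (A B : Submodule k (G → W)) (ρ : G →* Module.End k (A ⧸ B.comap A.subtype)),
      IsIrred ρ ∧ act ρ εB = 1 ∧ F.Lies ρ τ := by
  classical
  let _ : Fintype G := Fintype.ofFinite G
  let _ : Fintype F.T := Fintype.ofFinite F.T
  have := hτ.1
  -- translation on functions
  let R : G →* Module.End k (G → W) :=
    { toFun := fun g =>
        { toFun := fun f y => f (y * g)
          map_add' := fun _ _ => rfl
          map_smul' := fun _ _ => rfl }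
      map_one' := LinearMap.ext fun f => funext fun y => by simp
      map_mul' := fun a b => LinearMap.ext fun f => funext fun y => by simp [mul_assoc] }
  let V : Submodule k (G → W) :=
    { carrier := {f | ∀ (t : F.T) (g : G), f ((t : G) * g) = τ t (f g)}
      add_mem' := fun {a b} ha hb t g => by simp [ha t g, hb t g]
      zero_mem' := fun t g => by simp
      smul_mem' := fun r {a} ha t g => by simp [ha t g] }
  have hV : ∀ g, ∀ v ∈ V, R g v ∈ V := fun g v hv t y => by
    show v ((t : G) * y * g) = τ t (v (y * g))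
    rw [mul_assoc]; exact hv t _
  have hRapply : ∀ (a : MonoidAlgebra k G) (f : G → W) (y : G),
      act R a f y = ∑ g, a.coeff g • f (y * g) := by
    intro a f y
    rw [act_eq_sum, LinearMap.sum_apply, Finset.sum_apply]
    rfl
  -- value at one
  let ev : (G → W) →ₗ[k] W := LinearMap.proj (1 : G)
  have hev : ∀ (t : F.T), ∀ v ∈ V, ev (R (t : G) v) = τ t (ev v) := fun t v hv => by
    show v (1 * (t : G)) = τ t (v 1)
    rw [one_mul, ← hv t 1, mul_one]
  have hevsupp : ∀ a, Supp F.T a → ∀ v ∈ V, ev (act R a v) = F.actT τ a (ev v) := by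
    intro a ha v hv
    rw [actT_apply, LinearMap.sum_apply, show ev (act R a v) = act R a v 1 from rfl, hRapply]
    rw [← Finset.sum_subset (Finset.subset_univ (Finset.univ.filter (fun g : G => g ∈ F.T)))
      (fun g _ hg => by
        rw [ha.coeff_eq_zero (fun h => hg (Finset.mem_filter.2 ⟨Finset.mem_univ _, h⟩)), zero_smul]),
      Finset.sum_subtype _ (p := fun g => g ∈ F.T) (fun g => by simp)]
    refine Finset.sum_congr (by congr! 1) fun t _ => ?_
    show _ = a.coeff (t : G) • τ t (v 1)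
    rw [← hv t 1, one_mul, mul_one]
  -- a section
  let A0 : W → G → W := fun w g => if h : g ∈ F.T then τ ⟨g, h⟩ w else 0
  have hA0 : ∀ w, A0 w ∈ V := by
    intro w t g
    by_cases hg : g ∈ F.T
    · have htg : (t : G) * g ∈ F.T := F.T.mul_mem t.2 hg
      simp only [A0, dif_pos hg, dif_pos htg]
      rw [← Module.End.mul_apply, ← map_mul]
      rfl
    · have htg : (t : G) * g ∉ F.T := fun h => hg ((Subgroup.mul_mem_cancel_left _ t.2).1 h)
      simp [A0, dif_neg hg, dif_neg htg]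
  have hA0supp : ∀ a, Supp F.T a → ∀ w, act R a (A0 w) = A0 (F.actT τ a w) := by
    intro a ha w
    funext y
    rw [hRapply]
    by_cases hy : y ∈ F.T
    · simp only [A0, dif_pos hy, actT_apply, LinearMap.sum_apply, map_sum, LinearMap.smul_apply,
        map_smul]
      rw [← Finset.sum_subset (Finset.subset_univ (Finset.univ.filter (fun g : G => g ∈ F.T)))
        (fun g _ hg => by
          rw [ha.coeff_eq_zero (fun h => hg (Finset.mem_filter.2 ⟨Finset.mem_univ _, h⟩)), zero_smul]),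
        Finset.sum_subtype _ (p := fun g => g ∈ F.T) (fun g => by simp)]
      refine Finset.sum_congr (by congr! 1) fun t _ => ?_
      rw [dif_pos (F.T.mul_mem hy t.2), ← Module.End.mul_apply, ← map_mul]
      rfl
    · simp only [A0, dif_neg hy]
      refine Finset.sum_eq_zero fun g _ => ?_
      by_cases hg : a.coeff g = 0
      · rw [hg, zero_smul]
      · rw [dif_neg fun h => hy ((Subgroup.mul_mem_cancel_right _ (ha g hg)).1 h), smul_zero]
  have hεT : Supp F.T F.ε := F.cent.supp.mono F.C_le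
  have hπT : Supp F.T F.π := F.pi_cent.supp.mono F.C_le
  have hπm : ∀ m, 0 < m → ∀ w, (act R F.π ^ m) (A0 w) = 0 := by
    intro m hm w
    obtain ⟨m', rfl⟩ : ∃ m', m = m' + 1 := ⟨m - 1, by omega⟩
    rw [pow_succ, Module.End.mul_apply, hA0supp _ hπT, hπ, LinearMap.zero_apply,
      show A0 0 = 0 from funext fun g => by simp [A0], map_zero]
  have hcomm : ∀ a b : MonoidAlgebra k G, IsCent ⊤ a → act R a * act R b = act R b * act R a :=
    fun a b ha => by rw [← map_mul, ← map_mul, ha.comm (fun x _ => Subgroup.mem_top x)]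
  -- the good submodules
  let Good : Submodule k (G → W) → Prop := fun A => A ≤ V ∧ (∀ g, ∀ v ∈ A, R g v ∈ A) ∧
    (∀ v ∈ A, act R εB v = v) ∧ ∃ v ∈ A ⊓ F.K R, ev v ≠ 0
  have hgood0 : Good (V.map (act R εB)) := by
    obtain ⟨w, hw⟩ := exists_ne (0 : W)
    refine ⟨?_, ?_, ?_, act R εB (A0 w), ⟨⟨A0 w, hA0 w, rfl⟩, ⟨act R εB (A0 w), ?_⟩, ?_⟩, ?_⟩
    · rintro _ ⟨v, hv, rfl⟩
      exact act_mem R V hV εB hv
    · rintro g _ ⟨v, hv, rfl⟩
      exact ⟨R g v, hV g v hv, (LinearMap.congr_fun (rho_mul_act_of_inv R hBc.inv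
        (Subgroup.mem_top g)) v).symm⟩
    · rintro _ ⟨v, -, rfl⟩
      rw [← Module.End.mul_apply, ← map_mul, hBi]
    · rw [← Module.End.mul_apply, ← hcomm _ _ hBc, Module.End.mul_apply, hA0supp _ hεT, hε,
        Module.End.one_apply]
    · rw [SetLike.mem_coe, LinearMap.mem_ker, ← map_pow, ← Module.End.mul_apply,
        ← hcomm _ _ hBc, Module.End.mul_apply, map_pow,
        hπm (F.q - 1) (by have := F.one_lt; omega), map_zero]
    · -- the value at one
      have h1 : ev (act R εB (A0 w)) = F.actT τ εB w := by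
        rw [show ev (act R εB (A0 w)) = act R εB (A0 w) 1 from rfl, hRapply, actT_apply,
          LinearMap.sum_apply]
        rw [← Finset.sum_subset (Finset.subset_univ (Finset.univ.filter (fun g : G => g ∈ F.T)))
          (fun g _ hg => by
            simp only [Finset.mem_filter, Finset.mem_univ, true_and] at hg
            simp [A0, one_mul, dif_neg hg]),
          Finset.sum_subtype _ (p := fun g => g ∈ F.T) (fun g => by simp)]
        refine Finset.sum_congr (by congr! 1) fun t _ => ?_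
        simp [A0, one_mul]
      rwa [h1, hB, Module.End.one_apply]
  -- a minimal one and a maximal invariant subspace of it
  have hex : ∃ n, ∃ A, Good A ∧ finrank k A = n := ⟨_, _, hgood0, rfl⟩
  obtain ⟨A, ⟨hAV, hA, hAB, v₀, hv₀, hv₀'⟩, hn⟩ := Nat.find_spec hex
  let S : Set (Submodule k (G → W)) := {B | (∀ g, ∀ v ∈ B, R g v ∈ B) ∧ B < A}
  have hbot : (⊥ : Submodule k (G → W)) ∈ S := ⟨fun g v hv => by
    rw [Submodule.mem_bot] at hv ⊢; rw [hv, map_zero], bot_lt_iff_ne_bot.2 fun h => by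
      have h1 := hv₀.1
      rw [h, SetLike.mem_coe, Submodule.mem_bot] at h1
      rw [h1, map_zero] at hv₀'
      exact hv₀' rfl⟩
  obtain ⟨B, ⟨hBinv, hBlt⟩, hBmax⟩ := (wellFounded_gt (α := Submodule k (G → W))).has_min S ⟨⊥, hbot⟩
  have hBker : ∀ v ∈ B, v ∈ F.K R → ev v = 0 := by
    intro v hvB hvK
    by_contra hne
    have hg : Good B := ⟨hBlt.le.trans hAV, hBinv, fun u hu => hAB u (hBlt.le hu), v, ⟨hvB, hvK⟩, hne⟩
    have h1 := Nat.find_min' hex ⟨_, hg, rfl⟩
    rw [← hn] at h1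
    exact absurd h1 (not_le.2 (Submodule.finrank_lt_finrank_of_lt hBlt))
  set ρ := sectionRep R A B hA hBinv with hρdef
  have hρ : IsIrred ρ := isIrred_sectionRep R A B hA hBinv hBlt fun W' hW' hBW hWA => by
    rcases eq_or_lt_of_le hBW with h | h
    · exact Or.inl h.symm
    · refine Or.inr (by_contra fun hne => ?_)
      exact hBmax W' ⟨hW', lt_of_le_of_ne hWA hne⟩ h
  refine ⟨A, B, ρ, hρ, ?_, ?_⟩
  · refine LinearMap.ext fun x => ?_
    obtain ⟨v, rfl⟩ := Submodule.Quotient.mk_surjective _ x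
    rw [hρdef, act_sectionRep, Module.End.one_apply]
    congr 1
    exact Subtype.ext (hAB _ v.2)
  -- the functional on the section
  let mq : A →ₗ[k] A ⧸ B.comap A.subtype := (B.comap A.subtype).mkQ
  have hmq : ∀ (a : MonoidAlgebra k G) (v : A),
      act ρ a (mq v) = mq ⟨act R a v, act_mem R A hA a v.2⟩ :=
    fun a v => act_sectionRep R A B hA hBinv a v
  let P : Submodule k A := (F.K R).comap A.subtype
  have hPK : ∀ v ∈ P, mq v ∈ F.K ρ := by
    intro v hv
    refine ⟨⟨mq v, ?_⟩, ?_⟩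
    · rw [hmq]
      congr 1
      exact Subtype.ext (F.eps_apply_of_mem R hv.1)
    · rw [SetLike.mem_coe, LinearMap.mem_ker, ← map_pow, hmq]
      have : (⟨act R (F.π ^ (F.q - 1)) v, act_mem R A hA _ v.2⟩ : A) = 0 :=
        Subtype.ext (show act R (F.π ^ (F.q - 1)) (v : G → W) = 0 by
          rw [map_pow]; exact LinearMap.mem_ker.1 hv.2)
      rw [this, map_zero]
  have hPker : ∀ v ∈ P, mq v ∈ F.J ρ → ev (v : G → W) = 0 := by
    rintro v hv ⟨x, hx⟩
    obtain ⟨w, rfl⟩ := Submodule.Quotient.mk_surjective _ x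
    change act ρ F.π (mq w) = mq v at hx
    rw [hmq, Submodule.mkQ_apply, Submodule.mkQ_apply, Submodule.Quotient.eq] at hx
    have h2 : act R F.π (w : G → W) - (v : G → W) ∈ B := hx
    have hJ : act R F.π (w : G → W) ∈ F.K R := F.J_le_K R ⟨_, rfl⟩
    have h3 := hBker _ h2 ((F.K R).sub_mem hJ hv)
    rw [map_sub, hevsupp _ hπT _ (hAV w.2), hπ, LinearMap.zero_apply, zero_sub, neg_eq_zero] at h3
    exact h3
  have hfull : P.map mq ⊔ F.J ρ = F.K ρ := by
    rcases F.quot_simple ρ hρ (P.map mq ⊔ F.J ρ) le_sup_right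
      (sup_le (by rintro _ ⟨v, hv, rfl⟩; exact hPK v hv) (F.J_le_K ρ)) (fun t ht x hx => by
        rw [Submodule.mem_sup] at hx ⊢
        obtain ⟨_, ⟨v, hv, rfl⟩, j, hj, rfl⟩ := hx
        exact ⟨mq ⟨R t v, hA t v v.2⟩, ⟨_, F.K_inv R ht hv, rfl⟩, ρ t j, F.J_inv ρ ht hj,
          by
          rw [map_add]; rfl⟩) with h | h
    · exfalso
      refine hv₀' (hPker ⟨v₀, hv₀.1⟩ hv₀.2 ?_)
      rw [← h]
      exact Submodule.mem_sup_left ⟨_, hv₀.2, rfl⟩
    · exact h
  -- extend it
  obtain ⟨β, hβJ, hβ⟩ := exists_functional P mq (ev ∘ₗ A.subtype) (F.J ρ)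
    (fun v hv h => hPker v hv h)
  refine ⟨β, hβJ, fun t x hx => ?_, mq ⟨v₀, hv₀.1⟩, hPK _ hv₀.2, ?_⟩
  · have hmqt : ∀ v : A, ρ (t : G) (mq v) = mq ⟨R t v, hA t v v.2⟩ := fun v => by
      simpa using hmq (MonoidAlgebra.single (t : G) 1) v
    rw [← hfull, Submodule.mem_sup] at hx
    obtain ⟨x', hx', j, hj, rfl⟩ := hx
    obtain ⟨v, hv, rfl⟩ := Submodule.mem_map.1 hx'
    have h1 : β (mq v) = ev (v : G → W) := hβ v hv
    have h2 : β (mq ⟨R t v, hA t v v.2⟩) = ev (R t (v : G → W)) :=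
      hβ ⟨R t v, hA t v v.2⟩ (F.K_inv R t.2 hv)
    rw [map_add, map_add β, map_add β, hβJ j hj, hβJ _ (F.J_inv ρ t.2 hj), add_zero, add_zero,
      hmqt, h1, h2]
    exact hev t v (hAV v.2)
  · rw [show β (mq ⟨v₀, hv₀.1⟩) = ev v₀ from hβ ⟨v₀, hv₀.1⟩ hv₀.2]
    exact hv₀'

end Frame

end Cfsg.Agent.H20.Cyclic
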