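import Cfsg.Agent.H22.SubpairPoint
import Cfsg.Agent.H43.D1.ModP

/-!
# Representations extended to the group algebra
-/

set_option autoImplicit false
set_option linter.unusedSectionVars false

namespace Cfsg.Agent.H20.Cyclic

open Cfsg.Agent.H22

variable {k : Type*} [Field k] {G : Type*} [Group G] {V : Type*} [AddCommGroup V] [Module k V]

/-- A representation on the group algebra. -/
noncomputable def act (ρ : G →* Module.End k V) : MonoidAlgebra k G →ₐ[k] Module.End k V :=
  MonoidAlgebra.lift k (Module.End k V) G ρ

@[simp] theorem act_single (ρ : G →* Module.End k V) (g : G) (r : k) :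
    act ρ (MonoidAlgebra.single g r) = r • ρ g := by
  simp [act]

theorem act_eq_sum [Fintype G] (ρ : G →* Module.End k V) (a : MonoidAlgebra k G) :
    act ρ a = ∑ g, a.coeff g • ρ g := by
  induction a using MonoidAlgebra.induction_on with
  | of g => classical simp [MonoidAlgebra.of_apply, Finsupp.single_apply, ite_smul]
  | add a b ha hb => simp [ha, hb, add_smul, Finset.sum_add_distrib]
  | smul r a ha => simp [ha, Finset.smul_sum, smul_smul]

theorem single_inv_mul (g : G) :
    (MonoidAlgebra.single g (1 : k)) * MonoidAlgebra.single g⁻¹ 1 = 1 := by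
  rw [MonoidAlgebra.single_mul_single, mul_inv_cancel, one_mul, MonoidAlgebra.one_def]

theorem cj_eq [Finite G] (g : G) (a : MonoidAlgebra k G) :
    cj g a = MonoidAlgebra.single g 1 * a * MonoidAlgebra.single g⁻¹ 1 := by
  classical
  induction a using MonoidAlgebra.induction_on with
  | of h =>
    apply H40.ext_coeff
    intro x
    rw [coeff_cj, MonoidAlgebra.of_apply, MonoidAlgebra.single_mul_single,
      MonoidAlgebra.single_mul_single, MonoidAlgebra.coeff_single, MonoidAlgebra.coeff_single,
      Finsupp.single_apply, Finsupp.single_apply, one_mul, one_mul]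
    refine if_congr ⟨fun e => by rw [e]; group, fun e => by rw [← e]; group⟩ rfl rfl
  | add a b ha hb => rw [map_add, ha, hb, mul_add, add_mul]
  | smul r a ha => rw [map_smul, ha, mul_smul_comm, smul_mul_assoc]

theorem act_cj [Finite G] (ρ : G →* Module.End k V) (g : G) (a : MonoidAlgebra k G) :
    act ρ (cj g a) = ρ g * act ρ a * ρ g⁻¹ := by
  rw [cj_eq]
  simp

theorem conj_comp_inv (ρ : G →* Module.End k V) (g : G) : ρ g * ρ g⁻¹ = 1 := by
  rw [← map_mul, mul_inv_cancel, map_one]

theorem inv_comp_conj (ρ : G →* Module.End k V) (g : G) : ρ g⁻¹ * ρ g = 1 := by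
  rw [← map_mul, inv_mul_cancel, map_one]

/-- Passing a group element through the action. -/
theorem rho_mul_act [Finite G] (ρ : G →* Module.End k V) (g : G) (a : MonoidAlgebra k G) :
    ρ g * act ρ a = act ρ (cj g a) * ρ g := by
  rw [act_cj, mul_assoc (ρ g * act ρ a), inv_comp_conj, mul_one]

theorem rho_mul_act_of_inv [Finite G] (ρ : G →* Module.End k V) {R : Subgroup G}
    {a : MonoidAlgebra k G} (ha : Inv R a) {g : G} (hg : g ∈ R) :
    ρ g * act ρ a = act ρ a * ρ g := by
  rw [rho_mul_act, ha g hg]

theorem supp_single [Finite G] {C : Subgroup G} {c : G} (hc : c ∈ C) :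
    Supp C (MonoidAlgebra.single c (1 : k)) := by
  classical
  intro x hx
  simp only [MonoidAlgebra.coeff_single, Finsupp.single_apply] at hx
  split_ifs at hx with h
  · exact h ▸ hc
  · exact absurd rfl hx

/-- An invariant subspace is invariant under the group algebra. -/
theorem act_mem_of_supp [Finite G] (ρ : G →* Module.End k V) {C : Subgroup G}
    {a : MonoidAlgebra k G} (ha : Supp C a) (W : Submodule k V)
    (hW : ∀ c ∈ C, ∀ v ∈ W, ρ c v ∈ W) {v : V} (hv : v ∈ W) : act ρ a v ∈ W := by
  let _ : Fintype G := Fintype.ofFinite G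
  rw [act_eq_sum, LinearMap.sum_apply]
  refine W.sum_mem fun g _ => ?_
  rw [LinearMap.smul_apply]
  by_cases h : a.coeff g = 0
  · rw [h, zero_smul]; exact W.zero_mem
  · exact W.smul_mem _ (hW g (ha g h) v hv)

/-- An intertwiner commutes with the group algebra. -/
theorem map_act {W : Type*} [AddCommGroup W] [Module k W] {ρ : G →* Module.End k V}
    {σ : G →* Module.End k W} (φ : V →ₗ[k] W) (hφ : ∀ g v, φ (ρ g v) = σ g (φ v))
    (a : MonoidAlgebra k G) (v : V) : φ (act ρ a v) = act σ a (φ v) := by
  induction a using MonoidAlgebra.induction_on with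
  | of g => simp [MonoidAlgebra.of_apply, hφ]
  | add a b ha hb => simp [ha, hb]
  | smul r a ha => simp [ha]

end Cfsg.Agent.H20.Cyclic
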