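import Cfsg.Agent.H22.PairBridge
import Cfsg.Agent.H22.StarParts
import Cfsg.Agent.H42.BlockSpan
import Cfsg.Agent.H43.D1.ModP
import Cfsg.Agent.H20.Cyclic.Act

/-!
# Simple modules and central elements of a block are bounded by its characters
-/

set_option autoImplicit false
set_option linter.unusedSectionVars false
set_option maxHeartbeats 800000

open scoped ComplexConjugate

namespace Cfsg.Agent.H20.Cyclic

open Module Cfsg.Agent.H22
open Cfsg.Agent.H41 (ResField localRing res)
open Cfsg.Agent.H43.D1 (IsIrred span_range_eq_top exists_dual_ne_zero trace_eq_trace_pPrimePart)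

section Indep

variable {k : Type*} [Field k] {G : Type*} [Group G] [Fintype G]

/-- The traces of pairwise inequivalent irreducible representations are independent. -/
theorem linearIndependent_trace [IsAlgClosed k] {ι : Type*} [Fintype ι] (V : ι → Type*)
    [∀ i, AddCommGroup (V i)] [∀ i, Module k (V i)] [∀ i, FiniteDimensional k (V i)]
    (ρ : ∀ i, G →* Module.End k (V i)) (hirr : ∀ i, IsIrred (ρ i))
    (hne : ∀ i j, i ≠ j → ∀ θ : V i →ₗ[k] V j, (∀ g v, θ (ρ i g v) = ρ j g (θ v)) → θ = 0) :
    LinearIndependent k (fun i => fun g => LinearMap.trace k (V i) (ρ i g)) := by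
  classical
  let act : (G → k) → ∀ i, Module.End k (V i) := fun c i => ∑ g, c g • ρ i g
  have hact_lin : ∀ (c d : G → k) (a b : k) i, act (a • c + b • d) i = a • act c i + b • act d i := by
    intro c d a b i
    simp only [act, Finset.smul_sum, ← Finset.sum_add_distrib, smul_smul, Pi.add_apply,
      Pi.smul_apply, smul_eq_mul, add_smul]
  have hconv : ∀ c d : G → k, ∃ e : G → k, ∀ i, act e i = act c i * act d i := by
    intro c d
    refine ⟨fun y => ∑ g, c g * d (g⁻¹ * y), fun i => ?_⟩
    simp only [act, Finset.sum_mul_sum, smul_mul_assoc, mul_smul_comm, smul_smul, ← map_mul,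
      Finset.sum_smul]
    rw [Finset.sum_comm]
    refine Finset.sum_congr rfl fun g _ => ?_
    refine Fintype.sum_equiv (Equiv.mulLeft g⁻¹) _ _ fun y => ?_
    simp [mul_comm]
  have hsurj : ∀ i (φ : Module.End k (V i)), ∃ c, act c i = φ := by
    intro i φ
    have hmem : φ ∈ Submodule.span k (Set.range (ρ i)) := by
      rw [span_range_eq_top (hirr i)]; exact Submodule.mem_top
    obtain ⟨c, hc⟩ := (Submodule.mem_span_range_iff_exists_fun k).1 hmem
    exact ⟨c, hc⟩
  have hone : ∀ i, act (fun g => if g = 1 then 1 else 0) i = 1 := by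
    intro i
    simp [act]
  -- separate `j` from `i`
  have hsep : ∀ i j, i ≠ j → ∃ c, act c i = 1 ∧ act c j = 0 := by
    intro i j hij
    by_cases hann : ∀ c, act c j = 0 → act c i = 0
    · exfalso
      have := (hirr j).1
      have := (hirr i).1
      obtain ⟨w, hw⟩ := exists_ne (0 : V j)
      obtain ⟨lam, hlam⟩ := exists_dual_ne_zero (k := k) hw
      have hpick : ∀ v : V j, ∃ c, act c j = lam.smulRight v := fun v => hsurj j _
      choose cv hcv using hpick
      have hwd : ∀ c v, act c j = lam.smulRight v → act c i = act (cv v) i := by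
        intro c v h
        have h0 := hann ((1 : k) • c + (-1 : k) • cv v) (by
          rw [hact_lin, h, hcv, one_smul, neg_one_smul, add_neg_cancel])
        rw [hact_lin, one_smul, neg_one_smul, ← sub_eq_add_neg, sub_eq_zero] at h0
        exact h0
      have hzero : ∀ (v : V j) (s : V i), act (cv v) i s = 0 := by
        intro v s
        let θ : V j →ₗ[k] V i :=
          { toFun := fun v => act (cv v) i s
            map_add' := fun v v' => by
              rw [← hwd ((1 : k) • cv v + (1 : k) • cv v') (v + v') (by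
                rw [hact_lin, hcv, hcv, one_smul, one_smul]; ext; simp), hact_lin]
              simp
            map_smul' := fun r v => by
              rw [← hwd (r • cv v + (0 : k) • cv v) (r • v) (by
                rw [hact_lin, hcv, zero_smul, add_zero]; ext; simp [smul_comm r]), hact_lin]
              simp }
        have hθ : θ = 0 := by
          refine hne j i (Ne.symm hij) θ fun g v => ?_
          obtain ⟨e, he⟩ := hconv (fun y => if y = g then 1 else 0) (cv v)
          have hg : ∀ l, act (fun y => if y = g then 1 else 0) l = ρ l g := fun l => by simp [act]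
          show act (cv (ρ j g v)) i s = ρ i g (act (cv v) i s)
          rw [← hwd e (ρ j g v) (by rw [he, hg, hcv]; ext; simp), he, hg, Module.End.mul_apply]
        exact LinearMap.congr_fun hθ v
      -- but the identity of `V j` is a combination of rank one maps
      let b := Module.finBasis k (V j)
      have hrk : ∀ a : Fin (finrank k (V j)), ∃ c, act c j = (b.coord a).smulRight (b a) :=
        fun a => hsurj j _
      choose ca hca using hrk
      have hva : ∀ (v : V j) (mu : Module.Dual k (V j)) c, act c j = mu.smulRight v → act c i = 0 := by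
        intro v mu c hc
        -- `mu ⊗ v` is `(lam ⊗ v) ∘ (mu ⊗ w')`
        obtain ⟨d, hd⟩ := hsurj j (mu.smulRight ((lam w)⁻¹ • w))
        obtain ⟨e, he⟩ := hconv (cv v) d
        have h1 : act e j = mu.smulRight v := by
          rw [he, hcv, hd]; ext x
          simp [hlam]
        have h2 := hann ((1 : k) • c + (-1 : k) • e) (by
          rw [hact_lin, hc, h1, one_smul, neg_one_smul, add_neg_cancel])
        rw [hact_lin, one_smul, neg_one_smul, ← sub_eq_add_neg, sub_eq_zero] at h2
        rw [h2, he]
        ext x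
        exact hzero v _
      have hsum : ∀ s : Finset (Fin (finrank k (V j))), ∃ c,
          act c j = ∑ a ∈ s, (b.coord a).smulRight (b a) ∧ act c i = 0 := by
        intro s
        induction s using Finset.induction with
        | empty => exact ⟨0, by simp [act], by simp [act]⟩
        | insert a s ha ih =>
          obtain ⟨c, hc1, hc2⟩ := ih
          refine ⟨(1 : k) • ca a + (1 : k) • c, ?_, ?_⟩
          · rw [hact_lin, hca, hc1, one_smul, one_smul, Finset.sum_insert ha]
          · rw [hact_lin, hva _ _ _ (hca a), hc2, smul_zero, add_zero]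
      obtain ⟨c, hc1, hc2⟩ := hsum Finset.univ
      have hc1' : act c j = 1 := by
        rw [hc1]; ext x
        simpa using b.sum_repr x
      have h3 := hann ((1 : k) • c + (-1 : k) • fun g => if g = 1 then 1 else 0) (by
        rw [hact_lin, hc1', hone, one_smul, neg_one_smul, add_neg_cancel])
      rw [hact_lin, hc2, hone, smul_zero, zero_add, neg_one_smul, neg_eq_zero] at h3
      exact one_ne_zero h3
    · push Not at hann
      obtain ⟨c, hcj, hci⟩ := hann
      obtain ⟨s, hs⟩ : ∃ s, act c i s ≠ 0 := by
        by_contra h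
        push Not at h
        exact hci (LinearMap.ext h)
      -- the maps `act c i` with `act c j = 0` form a nonzero two-sided ideal
      obtain ⟨lam, hlam⟩ := exists_dual_ne_zero (k := k) hs
      let b := Module.finBasis k (V i)
      have hterm : ∀ a : Fin (finrank k (V i)), ∃ d,
          act d i = (b.coord a).smulRight (b a) ∧ act d j = 0 := by
        intro a
        obtain ⟨l, hl⟩ := hsurj i (lam.smulRight ((lam (act c i s))⁻¹ • b a))
        obtain ⟨r, hr⟩ := hsurj i ((b.coord a).smulRight s)
        obtain ⟨e, he⟩ := hconv l c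
        obtain ⟨d, hd⟩ := hconv e r
        refine ⟨d, ?_, by rw [hd, he, hcj, mul_zero, zero_mul]⟩
        rw [hd, he, hl, hr]
        ext x
        simp [hlam, smul_smul]
      choose d hd1 hd2 using hterm
      have hsum : ∀ t : Finset (Fin (finrank k (V i))), ∃ c,
          act c i = ∑ a ∈ t, (b.coord a).smulRight (b a) ∧ act c j = 0 := by
        intro t
        induction t using Finset.induction with
        | empty => exact ⟨0, by simp [act], by simp [act]⟩
        | insert a t ha ih =>
          obtain ⟨c, hc1, hc2⟩ := ih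
          refine ⟨(1 : k) • d a + (1 : k) • c, ?_, ?_⟩
          · rw [hact_lin, hd1, hc1, one_smul, one_smul, Finset.sum_insert ha]
          · rw [hact_lin, hd2, hc2, smul_zero, add_zero]
      obtain ⟨e, he1, he2⟩ := hsum Finset.univ
      refine ⟨e, ?_, he2⟩
      rw [he1]; ext x
      simpa using b.sum_repr x
  -- an element of trace one on `i` and zero elsewhere
  have htrace : ∀ i, ∃ c, LinearMap.trace k (V i) (act c i) = 1 ∧
      ∀ j, j ≠ i → act c j = 0 := by
    intro i
    have hprod : ∀ s : Finset ι, i ∉ s → ∃ c, act c i = 1 ∧ ∀ j ∈ s, act c j = 0 := by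
      intro s
      induction s using Finset.induction with
      | empty => exact fun _ => ⟨_, hone i, by simp⟩
      | insert j s hj ih =>
        intro his
        rw [Finset.mem_insert, not_or] at his
        obtain ⟨c, hc1, hc2⟩ := ih his.2
        obtain ⟨d, hd1, hd2⟩ := hsep i j his.1
        obtain ⟨e, he⟩ := hconv c d
        refine ⟨e, by rw [he, hc1, hd1, one_mul], fun l hl => ?_⟩
        rcases Finset.mem_insert.1 hl with rfl | hl
        · rw [he, hd2, mul_zero]
        · rw [he, hc2 l hl, zero_mul]
    obtain ⟨c, hc1, hc2⟩ := hprod (Finset.univ.erase i) (Finset.notMem_erase _ _)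
    have := (hirr i).1
    obtain ⟨w, hw⟩ := exists_ne (0 : V i)
    obtain ⟨lam, hlam⟩ := exists_dual_ne_zero (k := k) hw
    obtain ⟨d, hd⟩ := hsurj i (lam.smulRight ((lam w)⁻¹ • w))
    obtain ⟨e, he⟩ := hconv c d
    refine ⟨e, ?_, fun j hj => ?_⟩
    · rw [he, hc1, one_mul, hd, LinearMap.trace_smulRight]
      simp [inv_mul_cancel₀ hlam]
    · rw [he, hc2 j (Finset.mem_erase.2 ⟨hj, Finset.mem_univ j⟩), zero_mul]
  choose cc hcc1 hcc2 using htrace
  rw [Fintype.linearIndependent_iff]
  intro r hr i
  have hall : ∀ g, ∑ l, r l * LinearMap.trace k (V l) (ρ l g) = 0 := fun g => by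
    simpa using congrFun hr g
  have h : ∑ l, r l * LinearMap.trace k (V l) (act (cc i) l) = 0 := by
    simp only [act, map_sum, map_smul, smul_eq_mul, Finset.mul_sum]
    rw [Finset.sum_comm]
    refine Finset.sum_eq_zero fun g _ => ?_
    rw [Finset.sum_congr rfl fun l _ => mul_left_comm (r l) (cc i g) _, ← Finset.mul_sum, hall,
      mul_zero]
  rw [Finset.sum_eq_single i (fun l _ hl => by rw [hcc2 i l hl, map_zero, mul_zero])
    (fun h => absurd (Finset.mem_univ i) h), hcc1, mul_one] at h
  exact h

end Indep

section Lift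

variable {M : Ideal Cfsg.AlgInt} [M.IsMaximal]

theorem res_surjective : Function.Surjective (res M) := by
  intro a
  obtain ⟨z, rfl⟩ := Ideal.Quotient.mk_surjective a
  refine ⟨⟨(z : ℂ), H41.algInt_mem_localRing z⟩, ?_⟩
  show H41.resFun M _ = _
  rw [H41.resFun_eq (a := z) (b := 1) ((Ideal.ne_top_iff_one M).1 Ideal.IsPrime.ne_top') (by simp)]
  simp

/-- Vectors with independent reductions are independent. -/
theorem card_le_finrank_of_res {ι : Type*} [Fintype ι] {X : Type*} [Fintype X]
    (v : ι → X → localRing M) (hind : LinearIndependent (ResField M) fun i x => res M (v i x))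
    (S : Submodule ℂ (X → ℂ)) (hS : ∀ i, (fun x => ((v i x : localRing M) : ℂ)) ∈ S) :
    Fintype.card ι ≤ finrank ℂ S := by
  classical
  obtain ⟨Ψ, hΨ⟩ := LinearMap.exists_leftInverse_of_injective
    (Fintype.linearCombination (ResField M) fun i x => res M (v i x))
    (LinearMap.ker_eq_bot.2 ((linearIndependent_iff_injective_fintypeLinearCombination).1 hind))
  choose L hL using fun (x : X) (i : ι) => res_surjective (M := M) (Ψ (Pi.single x 1) i)
  let Mat : Matrix ι ι (localRing M) := fun i j => ∑ x, v i x * L x j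
  have hMat : (res M).mapMatrix Mat = 1 := by
    ext i j
    rw [RingHom.mapMatrix_apply, Matrix.map_apply, map_sum]
    simp only [map_mul, hL]
    have h1 := congrFun (LinearMap.congr_fun hΨ (Pi.single i 1)) j
    rw [LinearMap.comp_apply, Fintype.linearCombination_apply_single, one_smul,
      pi_eq_sum_univ' (fun x => res M (v i x)), map_sum, Finset.sum_apply] at h1
    simp only [map_smul, Pi.smul_apply, smul_eq_mul, LinearMap.id_apply] at h1
    rw [h1, Matrix.one_apply, Pi.single_apply]
    simp [eq_comm]
  have hdet : ((Mat.map (Subring.subtype (localRing M)))).det ≠ 0 := by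
    intro h0
    have h1 : Mat.det = 0 := Subring.subtype_injective _ (by
      rw [RingHom.map_det, RingHom.mapMatrix_apply, h0, map_zero])
    have h2 := congrArg (res M) h1
    rw [RingHom.map_det, hMat, Matrix.det_one, map_zero] at h2
    exact one_ne_zero h2
  have hli : LinearIndependent ℂ fun i => (⟨fun x => ((v i x : localRing M) : ℂ), hS i⟩ : S) := by
    rw [Fintype.linearIndependent_iff]
    intro c hc i
    refine congrFun (Matrix.eq_zero_of_vecMul_eq_zero hdet (v := c) ?_) i
    funext j
    have hz : ∀ x, ∑ i, c i * ((v i x : localRing M) : ℂ) = 0 := fun x => by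
      have := congrFun (congrArg Subtype.val hc) x
      simpa [Finset.sum_apply] using this
    show ∑ i, c i * ((∑ x, v i x * L x j : localRing M) : ℂ) = 0
    simp only [AddSubmonoidClass.coe_finsetSum, Subring.coe_mul, Finset.mul_sum]
    rw [Finset.sum_comm]
    refine Finset.sum_eq_zero fun x _ => ?_
    simp only [← mul_assoc]
    rw [← Finset.sum_mul, hz, zero_mul]
  exact hli.fintype_card_le_finrank

end Lift

section Block

variable {G : Type*} [Group G] [Fintype G] {M : Ideal Cfsg.AlgInt} [M.IsMaximal]
  {p : ℕ} [Fact p.Prime]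

/-- The block part of a function as a sum against the block coefficients. -/
theorem sum_blockCoeff_mul (B : Set (Cfsg.IrrCharacter G)) {θ : G → ℂ}
    (hθ : Cfsg.IsClassFunction G θ) (g : G) :
    ∑ h : G, Cfsg.blockCoeff B h * θ (h * g) =
      ∑ χ ∈ H42.blockFinset B, Cfsg.classInner θ (χ : G → ℂ) * (χ : G → ℂ) g := by
  classical
  have hexp := H26.class_function_expansion θ hθ
  have key : ∀ χ : Cfsg.IrrCharacter G, ∑ h : G, Cfsg.blockCoeff B h * (χ : G → ℂ) (h * g) =
      if χ ∈ B then (χ : G → ℂ) g else 0 := fun χ => H40.sum_blockCoeff_mul_irr B χ g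
  calc ∑ h : G, Cfsg.blockCoeff B h * θ (h * g)
      = ∑ h : G, ∑ χ : Cfsg.IrrCharacter G,
          Cfsg.classInner θ (χ : G → ℂ) * (Cfsg.blockCoeff B h * (χ : G → ℂ) (h * g)) := by
        refine Finset.sum_congr rfl fun h _ => ?_
        have := congrFun hexp (h * g)
        rw [Finset.sum_apply] at this
        rw [this, Finset.mul_sum]
        exact Finset.sum_congr rfl fun χ _ => by rw [Pi.smul_apply, smul_eq_mul]; ring
    _ = _ := by
        rw [Finset.sum_comm]
        simp only [← Finset.mul_sum, key, mul_ite, mul_zero, ← Finset.sum_filter]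
        refine Finset.sum_congr (Finset.ext fun χ => ?_) fun _ _ => rfl
        simp [H42.mem_blockFinset]

theorem isPRegular_iff {p : ℕ} (x : G) : Cfsg.IsPRegular p x ↔ ¬ p ∣ orderOf x := Iff.rfl

variable [CharP (ResField M) p]

/-- Pairwise inequivalent simple modules of a block are at most its regular rank. -/
theorem card_le_blockRank (hM : Cfsg.IsPModular p M) {B : Set (Cfsg.IrrCharacter G)}
    (hB : Cfsg.IsPBlock M B) {ι : Type*} [Fintype ι] (V : ι → Type*) [∀ i, AddCommGroup (V i)]
    [∀ i, Module (ResField M) (V i)] [∀ i, FiniteDimensional (ResField M) (V i)]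
    (ρ : ∀ i, G →* Module.End (ResField M) (V i)) (hirr : ∀ i, IsIrred (ρ i))
    (hB1 : ∀ i, act (ρ i) (elTop M B) = 1)
    (hne : ∀ i j, i ≠ j → ∀ θ : V i →ₗ[ResField M] V j,
      (∀ g v, θ (ρ i g v) = ρ j g (θ v)) → θ = 0) :
    Fintype.card ι ≤ Cfsg.blockRank p B := by
  classical
  have := H43.D1.isAlgClosed_resField M
  have hp : p.Prime := Fact.out
  let tr : ι → G → ResField M := fun i g => LinearMap.trace (ResField M) (V i) (ρ i g)
  -- a class function lifting the traces
  let rep : G → G := fun g => (ConjClasses.mk g).out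
  have hrep : ∀ g, IsConj (rep g) g := fun g =>
    ConjClasses.mk_eq_mk_iff_isConj.1 (Quotient.out_eq (ConjClasses.mk g))
  have htr : ∀ i g h, IsConj g h → tr i g = tr i h := by
    intro i g h hgh
    obtain ⟨w, rfl⟩ := isConj_iff.1 hgh
    show LinearMap.trace _ _ (ρ i g) = LinearMap.trace _ _ (ρ i (w * g * w⁻¹))
    rw [map_mul (ρ i) (w * g), map_mul (ρ i) w g, LinearMap.trace_mul_comm, ← mul_assoc, ← map_mul,
      inv_mul_cancel, map_one, one_mul]
  choose lift hlift using res_surjective (M := M)
  let T : ι → G → localRing M := fun i g => lift (tr i (rep g))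
  have hT : ∀ i g, res M (T i g) = tr i g := fun i g => by rw [hlift, htr i _ _ (hrep g)]
  have hTcl : ∀ i, Cfsg.IsClassFunction G (fun g => ((T i g : localRing M) : ℂ)) := by
    intro i g h
    show ((T i (h * g * h⁻¹) : localRing M) : ℂ) = T i g
    have : ConjClasses.mk (h * g * h⁻¹) = ConjClasses.mk g :=
      ConjClasses.mk_eq_mk_iff_isConj.2 (isConj_iff.2 ⟨h⁻¹, by group⟩)
    simp only [T, rep, this]
  -- project to the block and restrict to regular elements
  let v : ι → G → localRing M := fun i g => if p ∣ orderOf g then 0 else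
    ∑ h : G, ⟨Cfsg.blockCoeff B h, H41.blockCoeff_mem hB h⟩ * T i (h * g)
  have hv : ∀ i g, ¬ p ∣ orderOf g → res M (v i g) = tr i g := by
    intro i g hg
    simp only [v, if_neg hg, map_sum, map_mul, hT]
    have h1 : tr i g = LinearMap.trace (ResField M) (V i) (act (ρ i) (elTop M B) * ρ i g) := by
      rw [hB1, one_mul]
    rw [h1, act_eq_sum, Finset.sum_mul, map_sum]
    refine Finset.sum_congr rfl fun h _ => ?_
    rw [smul_mul_assoc, map_smul, smul_eq_mul, coeff_elTop, resT_of_mem (H41.blockCoeff_mem hB h),
      ← map_mul]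
  have hreg : ∀ g : G, ∃ y, ¬ p ∣ orderOf y ∧ ∀ i, tr i g = tr i y := by
    intro g
    obtain ⟨u, y, hu, hy, huy, hpu, hpy⟩ :=
      H86.exists_pPart_mul_pPrimePart g (isOfFinOrder_of_finite g) hp
    refine ⟨y, (hp.coprime_iff_not_dvd).1 hpy.symm, fun i => ?_⟩
    show LinearMap.trace _ _ (ρ i g) = _
    rw [← huy]
    refine trace_eq_trace_pPrimePart (ρ i) hpu ?_
    obtain ⟨a, rfl⟩ := Subgroup.mem_zpowers_iff.1 hu
    obtain ⟨b, rfl⟩ := Subgroup.mem_zpowers_iff.1 hy
    exact (Commute.refl g).zpow_zpow a b
  have hind : LinearIndependent (ResField M) fun i g => res M (v i g) := by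
    have h0 := linearIndependent_trace V ρ hirr hne
    rw [Fintype.linearIndependent_iff] at h0 ⊢
    intro r hr
    refine h0 r (funext fun g => ?_)
    obtain ⟨y, hy, hgy⟩ := hreg g
    have h1 := congrFun hr y
    simp only [Finset.sum_apply, Pi.smul_apply, smul_eq_mul, Pi.zero_apply, hv _ _ hy] at h1 ⊢
    rw [← h1]
    exact Finset.sum_congr rfl fun i _ => by rw [← hgy]
  refine le_trans (card_le_finrank_of_res v hind
    (Submodule.span ℂ ((fun χ : Cfsg.IrrCharacter G => Cfsg.pRegularPart p (χ : G → ℂ)) '' B))
    fun i => ?_) le_rfl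
  have hfun : (fun g => ((v i g : localRing M) : ℂ)) = ∑ χ ∈ H42.blockFinset B,
      Cfsg.classInner (fun g => ((T i g : localRing M) : ℂ)) (χ : G → ℂ) •
        Cfsg.pRegularPart p (χ : G → ℂ) := by
    funext g
    rw [Finset.sum_apply]
    by_cases hg : p ∣ orderOf g
    · simp [v, hg, Cfsg.pRegularPart, Cfsg.IsPRegular]
    · have := sum_blockCoeff_mul B (hTcl i) g
      simp [v, hg, Cfsg.pRegularPart, Cfsg.IsPRegular]
      exact this
  rw [hfun]
  exact Submodule.sum_mem _ fun χ hχ => Submodule.smul_mem _ _
    (Submodule.subset_span ⟨χ, H42.mem_blockFinset.1 hχ, rfl⟩)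

/-- Independent central elements of a block are at most its characters. -/
theorem card_le_card_block {B : Set (Cfsg.IrrCharacter G)} (hB : Cfsg.IsPBlock M B)
    {ι : Type*} [Fintype ι] (z : ι → MonoidAlgebra (ResField M) G) (hz : ∀ i, IsCent ⊤ (z i))
    (hzB : ∀ i, elTop M B * z i = z i) (hind : LinearIndependent (ResField M) z) :
    Fintype.card ι ≤ Nat.card B := by
  classical
  let rep : G → G := fun g => (ConjClasses.mk g).out
  have hrep : ∀ g, IsConj (rep g) g := fun g =>
    ConjClasses.mk_eq_mk_iff_isConj.1 (Quotient.out_eq (ConjClasses.mk g))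
  choose lift hlift using res_surjective (M := M)
  let T : ι → G → localRing M := fun i g => lift ((z i).coeff (rep g))
  have hT : ∀ i g, res M (T i g) = (z i).coeff g := by
    intro i g
    rw [hlift]
    obtain ⟨w, hw⟩ := isConj_iff.1 (hrep g)
    conv_rhs => rw [← hw]
    exact ((hz i).inv.coeff (Subgroup.mem_top w) _).symm
  have hTcl : ∀ i, Cfsg.IsClassFunction G (fun g => ((T i g : localRing M) : ℂ)) := by
    intro i g h
    show ((T i (h * g * h⁻¹) : localRing M) : ℂ) = T i g
    have : ConjClasses.mk (h * g * h⁻¹) = ConjClasses.mk g :=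
      ConjClasses.mk_eq_mk_iff_isConj.2 (isConj_iff.2 ⟨h⁻¹, by group⟩)
    simp only [T, rep, this]
  let v : ι → G → localRing M := fun i g =>
    ∑ h : G, ⟨Cfsg.blockCoeff B h, H41.blockCoeff_mem hB h⟩ * T i (h⁻¹ * g)
  have hv : ∀ i g, res M (v i g) = (z i).coeff g := by
    intro i g
    simp only [v, map_sum, map_mul, hT]
    conv_rhs => rw [← hzB i, H40.coeff_mul_eq_sum]
    refine Finset.sum_congr rfl fun h _ => ?_
    rw [coeff_elTop, resT_of_mem (H41.blockCoeff_mem hB h)]
  have hind' : LinearIndependent (ResField M) fun i g => res M (v i g) := by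
    rw [Fintype.linearIndependent_iff] at hind ⊢
    intro r hr
    refine hind r (H40.ext_coeff fun g => ?_)
    have h1 := congrFun hr g
    simpa [MonoidAlgebra.coeff_sum, hv] using h1
  refine (card_le_finrank_of_res v hind'
    (Submodule.span ℂ (Set.range fun χ : B => fun g => ((χ : Cfsg.IrrCharacter G) : G → ℂ) g⁻¹))
    fun i => ?_).trans ?_
  · have hcl : Cfsg.IsClassFunction G (fun g => ((T i g⁻¹ : localRing M) : ℂ)) := fun a b => by
      have := hTcl i a⁻¹ b
      rw [← this]
      congr 2
      group
    have hfun : (fun g => ((v i g : localRing M) : ℂ)) = ∑ χ ∈ H42.blockFinset B,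
        Cfsg.classInner (fun g => ((T i g⁻¹ : localRing M) : ℂ)) (χ : G → ℂ) •
          fun g => (χ : G → ℂ) g⁻¹ := by
      funext g
      rw [Finset.sum_apply]
      have h1 := sum_blockCoeff_mul B hcl g⁻¹
      simp only [v, AddSubmonoidClass.coe_finsetSum, Subring.coe_mul, Pi.smul_apply, smul_eq_mul]
      rw [← h1]
      refine Finset.sum_congr rfl fun h _ => ?_
      have : ConjClasses.mk (h⁻¹ * g) = ConjClasses.mk ((h * g⁻¹)⁻¹) :=
        ConjClasses.mk_eq_mk_iff_isConj.2 (isConj_iff.2 ⟨h, by group⟩)
      have h2 : T i (h⁻¹ * g) = T i (h * g⁻¹)⁻¹ :=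
        congrArg (fun C => lift ((z i).coeff (Quotient.out C))) this
      rw [h2]
    rw [hfun]
    exact Submodule.sum_mem _ fun χ hχ => Submodule.smul_mem _ _
      (Submodule.subset_span ⟨⟨χ, H42.mem_blockFinset.1 hχ⟩, rfl⟩)
  · have := Fintype.ofFinite B
    rw [Nat.card_eq_fintype_card]
    exact finrank_range_le_card _

end Block

end Cfsg.Agent.H20.Cyclic
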