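import Mathlib

/-!
# Lifting a layer of a nilpotent operator to a commuting operator
-/

set_option autoImplicit false
set_option linter.unusedSectionVars false

namespace Cfsg.Agent.H20.Cyclic

open Module

variable {k : Type*} [Field k] {V : Type*} [AddCommGroup V] [Module k V]

/-- A subspace between the image and one layer is, modulo the image, the image of a commuting
operator fixing it. -/
theorem exists_layer_proj (δ : Module.End k V) (l : ℕ) (hl : 0 < l) (A : Submodule k V)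
    (hprev : LinearMap.ker (δ ^ (l - 1)) ≤ LinearMap.range δ)
    (hDA : LinearMap.range δ ≤ A) (hAU : A ≤ LinearMap.ker (δ ^ l) ⊔ LinearMap.range δ) :
    ∃ E : Module.End k V, δ * E = E * δ ∧ (∀ v, E v ∈ A) ∧
      ∀ a ∈ A, E a - a ∈ LinearMap.range δ := by
  classical
  set D := LinearMap.range δ with hD
  -- a projection killing `D`
  obtain ⟨π', hπD, hπA, hπker, hπmod⟩ : ∃ π' : Module.End k V, (∀ d ∈ D, π' d = 0) ∧
      (∀ v, π' v ∈ A) ∧ (∀ v, (δ ^ l) (π' v) = 0) ∧ (∀ a ∈ A, π' a - a ∈ D) := by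
    set A1 := A ⊓ LinearMap.ker (δ ^ l) with hA1
    obtain ⟨A0, hA0⟩ := Submodule.exists_isCompl ((D ⊓ A1).comap A1.subtype)
    set A0' := A0.map A1.subtype with hA0'
    have hA0le : A0' ≤ A1 := by
      rintro _ ⟨z, -, rfl⟩; exact z.2
    have hdisj : Disjoint A0' D := by
      rw [Submodule.disjoint_def]
      rintro _ ⟨z, hz, rfl⟩ hzD
      have h0 : z ∈ (D ⊓ A1).comap A1.subtype := ⟨hzD, z.2⟩
      have := Submodule.disjoint_def.1 hA0.disjoint z h0 hz
      rw [this]; rfl
    obtain ⟨C, hC⟩ := Submodule.exists_isCompl (A0' ⊔ D)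
    have hcompl : IsCompl A0' (D ⊔ C) := by
      constructor
      · exact Disjoint.disjoint_sup_right_of_disjoint_sup_left hdisj hC.disjoint
      · rw [codisjoint_iff, ← sup_assoc]; exact hC.codisjoint.eq_top
    refine ⟨A0'.projectionOnto (D ⊔ C) hcompl |> fun P => A0'.subtype ∘ₗ P, fun d hd => ?_,
      fun v => (hA0le (Submodule.coe_mem _)).1, fun v => (hA0le (Submodule.coe_mem _)).2,
      fun a ha => ?_⟩
    · rw [LinearMap.comp_apply, Submodule.projectionOnto_apply_of_mem_right hcompl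
        (Submodule.mem_sup_left hd)]
      rfl
    · have ha' := hAU ha
      rw [Submodule.mem_sup] at ha'
      obtain ⟨b, hb, d, hd, rfl⟩ := ha'
      have hbA : b ∈ A := by
        have := A.sub_mem ha (hDA hd)
        rwa [add_sub_cancel_right] at this
      have hb1 : (⟨b, hbA, hb⟩ : A1) ∈ (⊤ : Submodule k A1) := Submodule.mem_top
      rw [← hA0.sup_eq_top, Submodule.mem_sup] at hb1
      obtain ⟨y, hy, z, hz, hyz⟩ := hb1
      have hbeq : b = (y : V) + (z : V) := congrArg Subtype.val hyz.symm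
      have hsum : b + d = (z : V) + ((y : V) + d) := by rw [hbeq]; abel
      have hzA0 : (z : V) ∈ A0' := ⟨z, hz, rfl⟩
      have hydD : (y : V) + d ∈ D ⊔ C := Submodule.mem_sup_left (D.add_mem hy.1 hd)
      rw [hsum, LinearMap.comp_apply, map_add,
        Submodule.projectionOnto_apply_of_mem_left hcompl hzA0,
        Submodule.projectionOnto_apply_of_mem_right hcompl hydD, add_zero]
      show (z : V) - ((z : V) + ((y : V) + d)) ∈ D
      rw [sub_add_cancel_left]
      exact D.neg_mem (D.add_mem hy.1 hd)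
  -- factor it through the power below the layer
  obtain ⟨Λ, hΛ0, hΛq, hΛker⟩ : ∃ Λ : Module.End k V, (∀ w, Λ ((δ ^ l) w) = 0) ∧
      (∀ v, Λ ((δ ^ (l - 1)) v) = π' v) ∧ (∀ w, (δ ^ l) (Λ w) = 0) := by
    set R := LinearMap.range (δ ^ l) with hR
    set Ψ : V →ₗ[k] V ⧸ R := R.mkQ ∘ₗ (δ ^ (l - 1)) with hΨ
    set q' : V →ₗ[k] LinearMap.ker (δ ^ l) :=
      LinearMap.codRestrict _ π' (fun v => LinearMap.mem_ker.2 (hπker v)) with hq'
    have hker : LinearMap.ker Ψ ≤ LinearMap.ker q' := by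
      intro v hv
      rw [LinearMap.mem_ker, hΨ, LinearMap.comp_apply, Submodule.mkQ_apply,
        Submodule.Quotient.mk_eq_zero] at hv
      obtain ⟨w, hw⟩ := hv
      have hmem : v - δ w ∈ D := by
        refine hprev ?_
        rw [LinearMap.mem_ker, map_sub, ← Module.End.mul_apply, ← pow_succ,
          Nat.sub_add_cancel hl, hw]
        exact sub_self _
      have hvD : v ∈ D := by
        have := D.add_mem hmem (⟨w, rfl⟩ : δ w ∈ D)
        rwa [sub_add_cancel] at this
      rw [LinearMap.mem_ker]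
      exact Subtype.ext (hπD _ hvD)
    obtain ⟨L', hL'⟩ : ∃ L' : V ⧸ R →ₗ[k] LinearMap.ker (δ ^ l), L' ∘ₗ Ψ = q' := by
      obtain ⟨g, hg⟩ := (((LinearMap.ker Ψ).liftQ q' hker) ∘ₗ
        Ψ.quotKerEquivRange.symm.toLinearMap).exists_extend
      refine ⟨g, LinearMap.ext fun v => ?_⟩
      have := LinearMap.congr_fun hg ⟨Ψ v, LinearMap.mem_range_self Ψ v⟩
      simp only [LinearMap.comp_apply, Submodule.subtype_apply, LinearEquiv.coe_coe,
        LinearMap.quotKerEquivRange_symm_apply_image, Submodule.mkQ_apply,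
        Submodule.liftQ_apply] at this
      exact this
    refine ⟨(LinearMap.ker (δ ^ l)).subtype ∘ₗ L' ∘ₗ R.mkQ, fun w => ?_, fun v => ?_,
      fun w => (L' (R.mkQ w)).2⟩
    · simp only [LinearMap.comp_apply, Submodule.mkQ_apply]
      rw [(Submodule.Quotient.mk_eq_zero R).2 (⟨w, rfl⟩ : (δ ^ l) w ∈ R), map_zero]
      rfl
    · exact congrArg Subtype.val (LinearMap.congr_fun hL' v)
  set E0 : Module.End k V := ∑ j ∈ Finset.range l, δ ^ j * Λ * δ ^ (l - 1 - j) with hE0
  have hmod : ∀ v, E0 v - π' v ∈ D := by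
    intro v
    rw [hE0, LinearMap.sum_apply, ← Finset.add_sum_erase _ _ (Finset.mem_range.2 hl), pow_zero,
      one_mul, Nat.sub_zero, Module.End.mul_apply, hΛq v, add_sub_cancel_left]
    refine Submodule.sum_mem _ fun j hj => ?_
    obtain ⟨j', rfl⟩ := Nat.exists_eq_succ_of_ne_zero (Finset.mem_erase.1 hj).1
    rw [pow_succ', mul_assoc, mul_assoc, Module.End.mul_apply]
    exact ⟨_, rfl⟩
  refine ⟨E0, ?_, fun v => ?_, fun a ha => ?_⟩
  · rw [hE0, Finset.mul_sum, Finset.sum_mul]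
    obtain ⟨l', rfl⟩ : ∃ l', l = l' + 1 := ⟨l - 1, by omega⟩
    rw [Finset.sum_range_succ (fun j => δ * (δ ^ j * Λ * δ ^ (l' + 1 - 1 - j))),
      Finset.sum_range_succ' (fun j => δ ^ j * Λ * δ ^ (l' + 1 - 1 - j) * δ)]
    have e1 : δ * (δ ^ l' * Λ * δ ^ (l' + 1 - 1 - l')) = 0 := by
      rw [← mul_assoc, ← mul_assoc, ← pow_succ', show δ ^ (l' + 1) * Λ = 0 from LinearMap.ext hΛker,
        zero_mul]
    have e2 : δ ^ 0 * Λ * δ ^ (l' + 1 - 1 - 0) * δ = 0 := by
      rw [mul_assoc, ← pow_succ, pow_zero, one_mul, show l' + 1 - 1 - 0 + 1 = l' + 1 by omega,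
        show Λ * δ ^ (l' + 1) = 0 from LinearMap.ext hΛ0]
    rw [e1, e2]
    congr 1
    refine Finset.sum_congr rfl fun j hj => ?_
    rw [Finset.mem_range] at hj
    rw [← mul_assoc, ← mul_assoc, ← pow_succ', mul_assoc _ _ δ, ← pow_succ,
      show l' + 1 - 1 - (j + 1) + 1 = l' + 1 - 1 - j by omega]
  · have := A.add_mem (hDA (hmod v)) (hπA v)
    rwa [sub_add_cancel] at this
  · have := D.add_mem (hmod a) (hπmod a ha)
    rwa [sub_add_sub_cancel] at this

end Cfsg.Agent.H20.Cyclic
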