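import Cfsg.Agent.H20.Cyclic.Local.Units
import Cfsg.Agent.H20.Cyclic.Local.Twist

/-!
# A block with cyclic defect has at least as many simple modules as its inertial index
-/

set_option autoImplicit false
set_option linter.unusedSectionVars false
set_option maxHeartbeats 1000000
set_option synthInstance.maxHeartbeats 400000

namespace Cfsg.Agent.H20.Cyclic

open Module Cfsg.Agent.H22
open Cfsg.Agent.H41 (ResField)
open Cfsg.Agent.H43.D1 (IsIrred)

universe u

variable {G : Type u} [Group G] [Finite G] {M : Ideal Cfsg.AlgInt} [M.IsMaximal] {p : ℕ}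
  [Fact p.Prime] [CharP (ResField M) p]

/-- Conjugation in the stabiliser preserves the maximal ideal of the centre. -/
theorem conj_pi {k : Type*} [Field k] {G : Type*} [Group G] [Finite G] [CharP k p]
    {P Z : Subgroup G} {b e f π : MonoidAlgebra k G} {q : ℕ} (h : Sub1 p b P e Z f)
    (hπ : IsCent (Subgroup.centralizer (Z : Set G)) π) (hfπ : f * π = π) (hπq : π ^ q = 0)
    (hq : 1 < q)
    (hspan : ∀ a, IsCent (Subgroup.centralizer (Z : Set G)) a → f * a = a →
      ∃ c : ℕ → k, a = ∑ l ∈ Finset.range q, c l • (π ^ l * f))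
    {t : G} (ht : t ∈ pairStab Z f) : ∃ w, cj t π = π * w ∧ w * π = π * w := by
  classical
  set C := Subgroup.centralizer (Z : Set G)
  have hTn := h.stab_le_normalizer_centralizer
  have hc1 : IsCent C (cj t π) := by
    have := hπ.cj t
    rwa [cS_eq_self (hTn ht)] at this
  have hf1 : f * cj t π = cj t π := by
    conv_lhs => rw [← show cj t f = f from ht.2]
    rw [← map_mul, hfπ]
  obtain ⟨c, hc⟩ := hspan _ hc1 hf1
  set s := ∑ l ∈ Finset.range (q - 1), c (l + 1) • (π ^ l * f) with hs
  have hsC : IsCent C s := IsCent.sum _ fun l _ => ((isCent_pow hπ l).mul h.blockEl.cent).smul _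
  have hsplit : cj t π = π * s + c 0 • f := by
    rw [hc, hs, Finset.mul_sum]
    conv_lhs => rw [show q = q - 1 + 1 by omega]
    rw [Finset.sum_range_succ', pow_zero, one_mul]
    congr 1
    refine Finset.sum_congr rfl fun l _ => ?_
    rw [mul_smul_comm, ← mul_assoc, pow_succ']
  have h0 : c 0 = 0 := by
    have hn1 : IsNilpotent (π * s) :=
      (show Commute π s from hπ.comm hsC.supp).isNilpotent_mul_right ⟨q, hπq⟩
    have hn2 : IsNilpotent (cj t π) := ⟨q, by rw [← map_pow, hπq, map_zero]⟩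
    have hn3 : IsNilpotent (c 0 • f) := by
      rw [show c 0 • f = cj t π - π * s by rw [hsplit]; abel]
      exact (show Commute (cj t π) (π * s) from hc1.comm (hπ.mul hsC).supp).isNilpotent_sub hn2 hn1
    by_contra hne
    have h2 := hn3.smul (c 0)⁻¹
    rw [inv_smul_smul₀ hne] at h2
    exact h.blockEl.ne_zero (isIdempotentElem_eq_zero_of_isNilpotent h.blockEl.idem h2)
  exact ⟨s, by rw [hsplit, h0, zero_smul, add_zero], (hπ.comm hsC.supp).symm⟩

/-- An element of the stabiliser twists the simple module into itself. -/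
theorem exists_twist (hM : Cfsg.IsPModular p M) {C T : Subgroup G}
    {bs : Set (Cfsg.IrrCharacter C)} (hbs : Cfsg.IsPBlock M bs) (hrank : Cfsg.blockRank p bs = 1)
    {V : Type*} [AddCommGroup V] [Module (ResField M) V] [FiniteDimensional (ResField M) V]
    {ρ : C →* Module.End (ResField M) V} (hρ : IsIrred ρ) (hρε : act ρ (elTop M bs) = 1)
    {hTn : T ≤ Subgroup.normalizer (C : Set G)} {t₀ : G} (ht₀ : t₀ ∈ T)
    (hinv : Inv T (emb C.subtype (elTop M bs))) :
    ∃ θ₀ : Module.End (ResField M) V, Function.Bijective θ₀ ∧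
      ∀ c : C, θ₀ * ρ c = ρ ⟨t₀ * c * t₀⁻¹, conj_mem hTn ht₀ c⟩ * θ₀ := by
  classical
  have := Fintype.ofFinite G
  have := Fintype.ofFinite C
  set k := ResField M
  let α : C →* C :=
    { toFun := fun c => ⟨t₀ * c * t₀⁻¹, conj_mem hTn ht₀ c⟩
      map_one' := Subtype.ext (by simp)
      map_mul' := fun a b => Subtype.ext (by simp [mul_assoc]) }
  set σ : C →* Module.End k (V) := ρ.comp α with hσdef
  have hσ : IsIrred σ := ⟨hρ.1, fun U hU => hρ.2 U fun c v hv => by
    have h1 := hU ⟨t₀⁻¹ * c * t₀⁻¹⁻¹, conj_mem hTn (inv_mem ht₀) c⟩ v hv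
    rwa [show σ ⟨t₀⁻¹ * c * t₀⁻¹⁻¹, conj_mem hTn (inv_mem ht₀) c⟩ = ρ c from
      congrArg ρ (Subtype.ext (by simp [α, mul_assoc]))] at h1⟩
  have hσε : act σ (elTop M bs) = 1 := by
    rw [← hρε, act_eq_sum, act_eq_sum]
    refine Fintype.sum_bijective α ⟨fun a b hab => Subtype.ext ?_, fun c => ⟨⟨t₀⁻¹ * c * t₀⁻¹⁻¹,
      conj_mem hTn (inv_mem ht₀) c⟩, Subtype.ext (by simp [α, mul_assoc])⟩⟩ _ _ fun c => ?_
    · have := congrArg Subtype.val hab
      simpa [α] using this
    · show _ • σ c = _ • ρ (α c)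
      congr 1
      have h1 := hinv.coeff ht₀ (c : G)
      have h2 := coeff_emb_apply C.subtype_injective (elTop M bs) (α c)
      have h3 := coeff_emb_apply C.subtype_injective (elTop M bs) c
      rw [← h3, ← h2]
      exact h1.symm
  obtain ⟨θ₀, hθ00, hθ₀⟩ := exists_hom hM hbs hrank hρ hσ hρε hσε
  have hbij := H43.D1.bijective_of_irred hρ hσ θ₀ hθ₀ hθ00
  exact ⟨θ₀, hbij, fun c => LinearMap.ext fun v => hθ₀ c v⟩

/-- Off the centraliser the orbits of `Z` are free. -/
theorem sum_eq_sum_cut {k : Type*} [Field k] [IsAlgClosed k] {G : Type*} [Group G] [Finite G]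
    [CharP k p] {P Z : Subgroup G} {b e f εB : MonoidAlgebra k G} (h : Sub1 p b P e Z f)
    (hB : IsBlockEl ⊤ εB) {T : Subgroup G} [Fintype T]
    {hCT : Subgroup.centralizer (Z : Set G) ≤ T} {V : Type*} [AddCommGroup V] [Module k V]
    [FiniteDimensional k V] (τ : T →* Module.End k V)
    {ρ : Subgroup.centralizer (Z : Set G) →* Module.End k V} (hρ : IsIrred ρ)
    (hτC : ∀ c : Subgroup.centralizer (Z : Set G), τ ⟨c, hCT c.2⟩ = ρ c) :
    ∑ t : T, εB.coeff (t : G) • τ t =
      ∑ t : T, (cut (Subgroup.centralizer (Z : Set G)) εB).coeff (t : G) • τ t := by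
  classical
  have hZC : Z ≤ Subgroup.centralizer (Z : Set G) := h.le.trans h.le_centralizer
  have hρz : ∀ z : Subgroup.centralizer (Z : Set G), (z : G) ∈ Z → ρ z = 1 := by
    intro z hz
    obtain ⟨a, ha⟩ := exists_scalar hρ (S := ρ z) fun c => by
      rw [← map_mul, ← map_mul]
      exact congrArg ρ (Subtype.ext (Subgroup.mem_centralizer_iff.1 c.2 z hz))
    have hzp : z ^ p = 1 := Subtype.ext (by
      have := pow_card_eq_one' (G := Z) (x := ⟨(z : G), hz⟩)
      rw [h.card_eq] at this
      simpa using congrArg Subtype.val this)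
    have h1 := congrArg (fun S => S ^ p) ha
    simp only [← map_pow, hzp, map_one, smul_pow, one_pow] at h1
    have := hρ.1
    have h2 : a ^ p = 1 := by
      obtain ⟨v, hv⟩ := exists_ne (0 : V)
      have h3 := LinearMap.congr_fun h1 v
      simp only [Module.End.one_apply, LinearMap.smul_apply] at h3
      exact (smul_left_injective k hv (by simpa using h3)).symm
    have h4 : a = 1 := by
      have : (a - 1) ^ p = 0 := by rw [sub_pow_char, h2, one_pow, sub_self]
      exact sub_eq_zero.1 (eq_zero_of_pow_eq_zero this)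
    rw [ha, h4, one_smul]
  have hzfix : ∀ z : Z, τ ⟨(z : G), hCT (hZC z.2)⟩ = 1 := fun z =>
    (hτC ⟨(z : G), hZC z.2⟩).trans (hρz _ z.2)
  have hZT : ∀ (z : Z) (t : T), (z : G) * t * (z : G)⁻¹ ∈ T := fun z t =>
    mul_mem (mul_mem (hCT (hZC z.2)) t.2) (inv_mem (hCT (hZC z.2)))
  let _ : MulAction Z T :=
    { smul := fun z t => ⟨_, hZT z t⟩
      one_smul := fun t => Subtype.ext (show ((1 : Z) : G) * t * ((1 : Z) : G)⁻¹ = t by simp)
      mul_smul := fun y z t => Subtype.ext (show ((y * z : Z) : G) * t * ((y * z : Z) : G)⁻¹ =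
        (y : G) * ((z : G) * t * (z : G)⁻¹) * (y : G)⁻¹ by
          simp [mul_assoc]) }
  have hinv : ∀ (z : Z) (t : T), (εB).coeff ((z • t : T) : G) • τ (z • t) =
      (εB).coeff (t : G) • τ t := by
    intro z t
    have h1 : (z • t : T) = ⟨(z : G), hCT (hZC z.2)⟩ * t * ⟨(z : G), hCT (hZC z.2)⟩⁻¹ := rfl
    have h3 : τ (⟨(z : G), hCT (hZC z.2)⟩⁻¹ : T) = 1 := by
      have := hzfix z⁻¹
      exact this
    rw [h1, map_mul, map_mul, hzfix z, one_mul, h3, mul_one]
    congr 1
    exact hB.cent.inv.coeff (Subgroup.mem_top (z : G)) (t : G)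
  rw [H40.sum_eq_sum_fixedPoints h.pGroup (fun x => by
      rw [← Nat.cast_smul_eq_nsmul k, CharP.cast_eq_zero, zero_smul]) _ hinv,
    Finset.sum_filter]
  refine Finset.sum_congr rfl fun t _ => ?_
  have hiff : t ∈ MulAction.fixedPoints Z T ↔ (t : G) ∈ Subgroup.centralizer (Z : Set G) := by
    rw [MulAction.mem_fixedPoints, Subgroup.mem_centralizer_iff]
    constructor
    · intro h1 y hy
      have h2 := congrArg Subtype.val (h1 ⟨y, hy⟩)
      change y * (t : G) * y⁻¹ = t at h2
      exact mul_inv_eq_iff_eq_mul.1 h2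
    · intro h1 z
      exact Subtype.ext (mul_inv_eq_iff_eq_mul.2 (h1 z z.2))
  by_cases hc : (t : G) ∈ Subgroup.centralizer (Z : Set G)
  · rw [if_pos (hiff.2 hc), coeff_cut_of_mem _ hc]
  · rw [if_neg (mt hiff.1 hc), coeff_cut_of_notMem _ hc, zero_smul]

/-- Elements supported on a subgroup come from its group algebra. -/
theorem exists_emb_of_supp {k : Type*} [Field k] {G : Type*} [Group G] [Finite G] {C : Subgroup G}
    {a : MonoidAlgebra k G} (ha : Supp C a) : ∃ a', emb C.subtype a' = a := by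
  refine ⟨H40.ofFun fun c : C => a.coeff (c : G), H40.ext_coeff fun x => ?_⟩
  by_cases hx : x ∈ C
  · show (emb C.subtype _).coeff (C.subtype ⟨x, hx⟩) = _
    rw [coeff_emb_apply C.subtype_injective, H40.coeff_ofFun]
  · rw [coeff_emb_notMem _ (by rwa [C.range_subtype]), ha.coeff_eq_zero hx]

/-- The action of an extension on the group algebra of the smaller subgroup. -/
theorem sum_emb_eq_act {k : Type*} [Field k] {G : Type*} [Group G] [Finite G] {C T : Subgroup G}
    [Fintype T] (hCT : C ≤ T) {V : Type*} [AddCommGroup V] [Module k V]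
    (τ : T →* Module.End k V) {ρ : C →* Module.End k V}
    (hτC : ∀ c : C, τ ⟨c, hCT c.2⟩ = ρ c) (a' : MonoidAlgebra k C) :
    ∑ t : T, (emb C.subtype a').coeff (t : G) • τ t = act ρ a' := by
  classical
  let _ : Fintype C := Fintype.ofFinite C
  rw [act_eq_sum]
  refine (Finset.sum_of_injOn (Subgroup.inclusion hCT) (Subgroup.inclusion_injective hCT).injOn
    (fun _ _ => Finset.mem_univ _) (fun t _ ht => ?_) fun c _ => ?_).symm
  · rw [coeff_emb_notMem _ (by
      rw [C.range_subtype]
      exact fun hc => ht ⟨⟨t, hc⟩, Finset.mem_univ _, rfl⟩), zero_smul]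
  · rw [show τ (Subgroup.inclusion hCT c) = ρ c from hτC c]
    congr 1
    exact (coeff_emb_apply C.subtype_injective a' c).symm

/-- Simple modules above inequivalent stable tops are inequivalent. -/
theorem card_le_of_frame (hM : Cfsg.IsPModular p M) {B : Set (Cfsg.IrrCharacter G)}
    (hB : Cfsg.IsPBlock M B) (F : Frame (ResField M) G) {ι : Type*} [Fintype ι]
    {W : Type*} [AddCommGroup W] [Module (ResField M) W] [FiniteDimensional (ResField M) W]
    (τ : ι → (F.T →* Module.End (ResField M) W)) (hτirr : ∀ j, IsIrred (τ j))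
    (hτε : ∀ j, F.actT (τ j) F.ε = 1) (hτπ : ∀ j, F.actT (τ j) F.π = 0)
    (hτB : ∀ j, F.actT (τ j) (elTop M B) = 1)
    (hτne : ∀ i j (ψ : W →ₗ[ResField M] W), ψ ≠ 0 →
      (∀ t v, ψ (τ i t v) = τ j t (ψ v)) → i = j) :
    Fintype.card ι ≤ Cfsg.blockRank p B := by
  classical
  have := H43.D1.isAlgClosed_resField M
  have := Fintype.ofFinite G
  have hbB := isBlockEl_elTop hB
  choose A' B' R hR hRB hlies using fun j =>
    F.exists_irred_above (τ j) (hτirr j) (hτε j) (hτπ j) (elTop M B) hbB.cent hbB.idem (hτB j)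
  have hfd : ∀ j, FiniteDimensional (ResField M) (A' j ⧸ (B' j).comap (A' j).subtype) := fun j =>
    inferInstance
  refine @card_le_blockRank G _ _ M _ p _ _ hM B hB ι _ (fun j => A' j ⧸ (B' j).comap (A' j).subtype)
    (fun j => Submodule.Quotient.addCommGroup _) (fun j => Submodule.Quotient.module _) hfd R hR hRB ?_
  intro i j hij θ hθ
  by_contra hθ0
  obtain ⟨ψ, hψ, hψi⟩ := F.exists_intertwiner (R i) (τ i) (τ j) (hτirr i) (hR i) (hR j) θ hθ hθ0
    (hlies i) (hlies j)
  exact hij (hτne i j ψ hψ hψi)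

/-- The frame at the subgroup of order `p`, with the simple module of its block. -/
theorem exists_frame (hM : Cfsg.IsPModular p M) {b : MonoidAlgebra (ResField M) G}
    {P Z : Subgroup G} {e f : MonoidAlgebra (ResField M) G} (h : Sub1 p b P e Z f)
    (hcyc : IsCyclic P) :
    ∃ (F : Frame (ResField M) G), F.T = pairStab Z f ∧ F.ε = f ∧
      ∃ (bs : Set (Cfsg.IrrCharacter (Subgroup.centralizer (Z : Set G))))
        (π' : MonoidAlgebra (ResField M) (Subgroup.centralizer (Z : Set G)))
        (A Bw : Submodule (ResField M)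
          (MonoidAlgebra (ResField M) (Subgroup.centralizer (Z : Set G))))
        (ρ : Subgroup.centralizer (Z : Set G) →*
          Module.End (ResField M) (A ⧸ Bw.comap A.subtype)),
        Cfsg.IsPBlock M bs ∧ emb (Subgroup.centralizer (Z : Set G)).subtype (elTop M bs) = f ∧
        Cfsg.blockRank p bs = 1 ∧ emb (Subgroup.centralizer (Z : Set G)).subtype π' = F.π ∧
        IsIrred ρ ∧ act ρ (elTop M bs) = 1 ∧ act ρ π' = 0 := by
  classical
  have := Fintype.ofFinite G
  set k := ResField M
  have hS := split M G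
  set C := Subgroup.centralizer (Z : Set G) with hCdef
  set T := pairStab Z f with hTdef
  set q := Nat.card P
  have hCT : C ≤ T := h.centralizer_le_stab
  have hTn : T ≤ Subgroup.normalizer (C : Set G) := h.stab_le_normalizer_centralizer
  obtain ⟨π, hπ, hfπ, hq, hπq, hπne, hspan⟩ := exists_centre hM h hcyc
  obtain ⟨bs, hbs, hbse, -, hrank⟩ := exists_block hM h hcyc
  obtain ⟨c₀, hc₀, hc₀f, hfc₀⟩ := exists_c0 hS h
  have := Fintype.ofFinite C
  let E : MonoidAlgebra k C →ₐ[k] MonoidAlgebra k G := emb C.subtype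
  have hEinj : Function.Injective E := emb_injective C.subtype_injective
  have hEf : E (elTop M bs) = f := by
    show emb C.subtype (elTop M bs) = f
    rw [emb_elTop C.subtype_injective]; exact hbse
  have hsuppE : ∀ a, Supp C (E a) := fun a => by
    have := supp_emb C.subtype a; rwa [C.range_subtype] at this
  have hpre : ∀ a, Supp C a → ∃ a', E a' = a := fun a ha => exists_emb_of_supp ha
  have hcentE : ∀ a, IsCent C (E a) → IsCent ⊤ a := fun a ha =>
    ⟨fun y _ => Subgroup.mem_top y, fun g _ => hEinj (by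
      show emb C.subtype _ = emb C.subtype _
      rw [← cj_emb C.subtype_injective]
      exact ha.inv _ g.2)⟩
  obtain ⟨π', hπ'⟩ := hpre π hπ.supp
  have hEpow : ∀ l, E (π' ^ l) = π ^ l := fun l => by rw [map_pow, hπ']
  obtain ⟨A, Bw, ρ, hρ, hρε, hρπ, n, u, hu⟩ := exists_simple_units hM hbs hrank
    (q := q) (π := π') (hcentE π' (hπ'.symm ▸ hπ)) (hEinj (by rw [map_mul, hEf, hπ', hfπ])) hq
    (hEinj (by rw [hEpow, hπq, map_zero]))
    (fun h0 => hπne (by rw [← hEpow, h0, map_zero]))
    (fun a ha haε => by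
      have hEa : IsCent C (E a) := by
        have h1 : IsCent (C.subtype).range (emb C.subtype a) := by
          refine isCent_emb C.subtype_injective (H40.mem_center_iff_coeff.2 fun g h' => ?_)
          simpa using ha.inv.coeff (Subgroup.mem_top h') g
        rwa [C.range_subtype] at h1
      obtain ⟨c, hc⟩ := hspan (E a) hEa (by rw [← hEf, ← map_mul, haε])
      refine ⟨c, hEinj ?_⟩
      rw [hc, map_sum]
      exact Finset.sum_congr rfl fun l _ => by rw [map_smul, map_mul, hEpow, hEf])
  have hconj : ∀ t ∈ T, ∃ w, cj t π = π * w ∧ w * π = π * w :=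
    fun t ht => conj_pi h hπ hfπ hπq hq hspan ht
  have hindex : (C.relIndex T : k) ≠ 0 := by
    rw [Ne, CharP.cast_eq_zero_iff k p]; exact h.not_dvd_relIndex
  let F : Frame k G :=
    { q := q
      n := n
      D := P
      C := C
      T := T
      N := Subgroup.normalizer (Z : Set G)
      ε := f
      π := π
      c0 := c₀
      f := fun i j => E (u i j)
      D_le := h.le_centralizer
      C_le := hCT
      T_le := h.stab_le_normalizer
      T_norm := hTn
      index_ne := hindex
      ti := fun g hg u hu hgu => h.ti hg hu hgu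
      orth := fun g hg hgT => h.orth hg hgT
      cent := h.blockEl.cent
      idem := h.blockEl.idem
      inv_T := inv_iff_le_stabEl.2 inf_le_right
      c0_inv := hc₀
      c0_trace := hc₀f
      eps_c0 := hfc₀
      pi_cent := hπ
      eps_pi := hfπ
      one_lt := hq
      pi_pow := hπq
      conj_pi := hconj
      n_pos := hu.pos
      f_supp := fun i j => hsuppE _
      mul_eq := fun i j l => by rw [← map_mul, hu.mul_eq]
      mul_ne := fun i j j' l hne => by rw [← map_mul, hu.mul_ne i j j' l hne, map_zero]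
      sum_diag := by rw [← map_sum, hu.sum_diag, hEf]
      eps_f := fun i j => by rw [← hEf, ← map_mul, hu.eps_mul]
      span := fun a ha haf => by
        obtain ⟨a', rfl⟩ := hpre a ha
        obtain ⟨c, hc⟩ := hu.span a' (hEinj (by rw [map_mul, hEf, haf]))
        refine ⟨c, ?_⟩
        rw [hc]
        simp only [map_sum, map_smul, map_mul, hEpow]
      ann := fun a ha haf hann => by
        obtain ⟨a', rfl⟩ := hpre a ha
        obtain ⟨w, hw⟩ := hu.ann a' (hEinj (by rw [map_mul, hEf, haf]))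
          (hEinj (by rw [map_mul, hEpow, hann, map_zero]))
        exact ⟨E w, hsuppE w, by rw [hw, map_mul, hπ']⟩ }
  exact ⟨F, rfl, rfl, bs, π', A, Bw, ρ, hbs, hEf, hrank, hπ', hρ, hρε, hρπ⟩

/-- The regular rank of a block with cyclic defect group is at least the inertial index. -/
theorem relIndex_le_blockRank (hM : Cfsg.IsPModular p M) {B : Set (Cfsg.IrrCharacter G)}
    (hB : Cfsg.IsPBlock M B) {P : Subgroup G} {e : MonoidAlgebra (ResField M) G}
    (hm : IsMaxEl p ⊤ (elTop M B) (P, e)) (hcyc : IsCyclic P) (hP1 : P ≠ ⊥) :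
    (Subgroup.centralizer (P : Set G)).relIndex (pairStab P e) ≤ Cfsg.blockRank p B := by
  classical
  have := H43.D1.isAlgClosed_resField M
  have hS := split M G
  have hbB := isBlockEl_elTop hB
  obtain ⟨Z, f, h⟩ := exists_sub1 hS hbB hm hcyc hP1
  rw [← h.relIndex_eq]
  obtain ⟨F, hFT, hFε, bs, π', A, Bw, ρ, hbs, hEf, hrank, hπ', hρ, hρε, hρπ⟩ :=
    exists_frame hM h hcyc
  rw [← hFT]
  have hCT : Subgroup.centralizer (Z : Set G) ≤ F.T := hFT ▸ h.centralizer_le_stab
  have hTn : F.T ≤ Subgroup.normalizer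
      ((Subgroup.centralizer (Z : Set G) : Subgroup G) : Set G) :=
    hFT ▸ h.stab_le_normalizer_centralizer
  have hindex : ((Subgroup.centralizer (Z : Set G)).relIndex F.T : ResField M) ≠ 0 := by
    rw [Ne, CharP.cast_eq_zero_iff (ResField M) p, hFT]; exact h.not_dvd_relIndex
  obtain ⟨t₀, ht₀', hgen'⟩ := h.exists_gen
  have ht₀ : t₀ ∈ F.T := hFT ▸ ht₀'
  have hgen : ∀ t ∈ F.T, ∃ i : ℕ, t * (t₀ ^ i)⁻¹ ∈ Subgroup.centralizer (Z : Set G) :=
    fun t ht => hgen' t (hFT ▸ ht)
  obtain ⟨θ₀, hbij, hθ₀⟩ := exists_twist hM hbs hrank hρ hρε (hTn := hTn) ht₀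
    (by rw [hEf, hFT]; exact inv_iff_le_stabEl.2 inf_le_right)
  obtain ⟨τ, hτirr, hτC, hτne⟩ := exists_extensions hCT hTn ht₀ hgen ρ hρ hindex θ₀ hbij hθ₀
  let _ : Fintype F.T := Fintype.ofFinite F.T
  have hactC : ∀ j a', F.actT (τ j) (emb (Subgroup.centralizer (Z : Set G)).subtype a') =
      act ρ a' := fun j a' =>
    (F.actT_apply (τ j) _).trans (sum_emb_eq_act hCT (τ j) (hτC j) a')
  have hkey := card_le_of_frame hM hB F τ hτirr (fun j => by rw [hFε, ← hEf, hactC, hρε])
    (fun j => by rw [← hπ', hactC, hρπ]) (fun j => by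
      obtain ⟨g', hg'⟩ := exists_emb_of_supp
        (supp_cut (Subgroup.centralizer (Z : Set G)) (elTop M B))
      have hb : cut (Subgroup.centralizer (Z : Set G)) (elTop M B) * f = f := h.below
      refine ((F.actT_apply (τ j) _).trans (sum_eq_sum_cut h hbB (τ j) hρ (hτC j))).trans ?_
      rw [← hg', sum_emb_eq_act hCT (τ j) (hτC j)]
      rw [← hg', ← hEf, ← map_mul] at hb
      have h5 := congrArg (act ρ) (emb_injective (Subgroup.subtype_injective _) hb)
      rwa [map_mul, hρε, mul_one] at h5) hτne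
  rwa [Fintype.card_fin] at hkey

end Cfsg.Agent.H20.Cyclic
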