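import Mathlib

/-!
# Matrix units of a block algebra with a uniserial centre

A central idempotent whose corner has one simple module, carries a symmetrizing form and has
centre spanned by the powers of one element is a matrix algebra over the ring of these powers.
-/

set_option autoImplicit false
set_option linter.unusedSectionVars false
set_option maxHeartbeats 400000

namespace Cfsg.Agent.H20.Cyclic

open Module

variable {k : Type*} [Field k] {A : Type*} [Ring A] [Algebra k A]

/-- A corner with one simple module `Φ`, a symmetrizing form and centre generated by `π`. -/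
structure UniserialCorner {V : Type*} [AddCommGroup V] [Module k V] (q : ℕ) (ε π : A)
    (Φ : A →ₐ[k] Module.End k V) (lam : A →ₗ[k] k) : Prop where
  central : ∀ a, Commute ε a
  idem : ε * ε = ε
  pi_central : ∀ a, Commute π a
  eps_pi : ε * π = π
  one_lt : 1 < q
  pi_pow : π ^ q = 0
  pi_pow_ne : π ^ (q - 1) ≠ 0
  center : ∀ z : A, (∀ a, Commute z a) → ε * z = z → ∃ c : ℕ → k,
    z = ∑ l ∈ Finset.range q, c l • (π ^ l * ε)
  map_eps : Φ ε = 1
  surj : Function.Surjective Φ
  nil : ∀ a, ε * a = a → Φ a = 0 → IsNilpotent a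
  lam_comm : ∀ a b, lam (a * b) = lam (b * a)
  lam_nondeg : ∀ a, (∀ b, lam (a * b) = 0) → a = 0

/-- The matrix units of such a corner, with their consequences. -/
structure CornerUnits (q : ℕ) (ε π : A) (n : ℕ) (f : Fin n → Fin n → A) : Prop where
  pos : 0 < n
  mul_eq : ∀ i j l, f i j * f j l = f i l
  mul_ne : ∀ i j j' l, j ≠ j' → f i j * f j' l = 0
  sum_diag : ∑ i, f i i = ε
  eps_mul : ∀ i j, ε * f i j = f i j
  span : ∀ a, ε * a = a → ∃ c : ℕ → Fin n → Fin n → k,
    a = ∑ l ∈ Finset.range q, ∑ i, ∑ j, c l i j • (π ^ l * f i j)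
  ann : ∀ a, ε * a = a → π ^ (q - 1) * a = 0 → ∃ w, a = π * w

variable {V : Type*} [AddCommGroup V] [Module k V] [FiniteDimensional k V] [Nontrivial V]
  [FiniteDimensional k A] {q : ℕ} {ε π : A} {Φ : A →ₐ[k] Module.End k V} {lam : A →ₗ[k] k}

/-- The nil ideal under the simple module inside the corner. -/
def cornerKer (h : UniserialCorner q ε π Φ lam) : Ideal A where
  carrier := {a | ε * a = a ∧ Φ a = 0}
  add_mem' := fun {a b} ha hb => ⟨by rw [mul_add, ha.1, hb.1], by rw [map_add, ha.2, hb.2, add_zero]⟩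
  zero_mem' := ⟨mul_zero _, map_zero _⟩
  smul_mem' := fun r a ha => ⟨by
    rw [smul_eq_mul, ← mul_assoc, (h.central r).eq, mul_assoc, ha.1], by
    rw [smul_eq_mul, map_mul, ha.2, mul_zero]⟩

theorem mem_cornerKer (h : UniserialCorner q ε π Φ lam) {a : A} :
    a ∈ cornerKer h ↔ ε * a = a ∧ Φ a = 0 := Iff.rfl

theorem cornerKer_isTwoSided (h : UniserialCorner q ε π Φ lam) : (cornerKer h).IsTwoSided :=
  ⟨fun {a} b ha => ⟨by rw [← mul_assoc, ha.1], by rw [map_mul, ha.2, zero_mul]⟩⟩

theorem map_pi (h : UniserialCorner q ε π Φ lam) : Φ π = 0 := by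
  have hnil : IsNilpotent (Φ π) := ⟨q, by rw [← map_pow, h.pi_pow, map_zero]⟩
  have hc : Φ π ∈ Subalgebra.center k (Module.End k V) := by
    rw [Subalgebra.mem_center_iff]
    intro T
    obtain ⟨a, rfl⟩ := h.surj T
    rw [← map_mul, ← map_mul, (h.pi_central a).eq]
  rw [Algebra.IsCentral.center_eq_bot k (Module.End k V), Algebra.mem_bot] at hc
  obtain ⟨c, hc⟩ := hc
  rw [← hc] at hnil ⊢
  obtain ⟨m, hm⟩ := hnil
  rw [← map_pow] at hm
  have hm' : c ^ m = 0 := (algebraMap k (Module.End k V)).injective (by rw [hm, map_zero])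
  rw [pow_eq_zero_iff'] at hm'
  rw [hm'.1, map_zero]

theorem exists_pow_cornerKer_eq_zero (h : UniserialCorner q ε π Φ lam) :
    ∃ m, cornerKer h ^ m = ⊥ := by
  have : IsArtinianRing A := IsArtinianRing.of_finite k A
  have hle : cornerKer h ≤ Ring.jacobson A := by
    intro a ha
    rw [Ring.jacobson_eq_sInf_isMaximal, Submodule.mem_sInf]
    intro I hI
    by_contra haI
    obtain ⟨y, i, hi, hyi⟩ := hI.exists_inv haI
    have hn : IsNilpotent (y * a) := h.nil _ ((cornerKer h).mul_mem_left y ha).1
      ((cornerKer h).mul_mem_left y ha).2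
    have hu : IsUnit i := by
      rw [show i = 1 - y * a from eq_sub_of_add_eq' hyi]
      exact hn.isUnit_one_sub
    exact hI.ne_top (Ideal.eq_top_of_isUnit_mem _ hi hu)
  obtain ⟨m, hm⟩ := IsSemiprimaryRing.isNilpotent (R := A)
  refine ⟨m, le_bot_iff.1 ?_⟩
  calc cornerKer h ^ m ≤ Ring.jacobson A ^ m := Ideal.pow_right_mono hle m
    _ = ⊥ := hm

theorem exists_cornerUnits (h : UniserialCorner q ε π Φ lam) :
    ∃ (n : ℕ) (f : Fin n → Fin n → A), CornerUnits (k := k) q ε π n f := by
  classical
  set I := cornerKer h with hI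
  have := cornerKer_isTwoSided h
  have hεc := h.central
  let b := Module.finBasis k V
  set n := finrank k V with hn
  have hn0 : 0 < n := Module.finrank_pos
  let E : Fin n → Fin n → Module.End k V := fun i j => (b.coord j).smulRight (b i)
  have hE : ∀ i j j' l, E i j * E j' l = if j = j' then E i l else 0 := by
    intro i j j' l
    refine LinearMap.ext fun v => ?_
    simp only [E, Module.End.mul_apply, LinearMap.smulRight_apply, map_smul, Basis.coord_apply,
      Basis.repr_self]
    split_ifs with hjj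
    · subst hjj; simp
    · simp [Finsupp.single_eq_of_ne' (Ne.symm hjj), Finsupp.single_eq_of_ne hjj]
  have hE1 : ∑ i, E i i = 1 := by
    refine LinearMap.ext fun v => ?_
    simp only [E, LinearMap.sum_apply, LinearMap.smulRight_apply, Basis.coord_apply,
      Module.End.one_apply]
    exact b.sum_repr v
  -- orthogonal idempotents
  choose s hs using fun i => h.surj (E i i)
  let e : Fin n → A ⧸ I := fun i => Ideal.Quotient.mk I (ε * s i)
  have horth : OrthogonalIdempotents e := by
    refine ⟨fun i => ?_, fun i j hij => ?_⟩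
    · show _ * _ = _
      rw [← map_mul, Ideal.Quotient.eq, mem_cornerKer]
      refine ⟨by simp only [mul_sub, ← mul_assoc, h.idem], ?_⟩
      simp [hs, h.map_eps, hE]
    · show _ * _ = _
      rw [← map_mul, Ideal.Quotient.eq_zero_iff_mem, mem_cornerKer]
      refine ⟨by simp only [← mul_assoc, h.idem], ?_⟩
      simp [hs, h.map_eps, hE, hij]
  have hker : ∀ x ∈ RingHom.ker (Ideal.Quotient.mk I), IsNilpotent x := by
    intro x hx
    rw [Ideal.mk_ker, mem_cornerKer] at hx
    exact h.nil x hx.1 hx.2
  obtain ⟨d, hd, hde⟩ := horth.lift_of_isNilpotent_ker _ hker fun i => ⟨_, rfl⟩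
  have hdI : ∀ i, d i - ε * s i ∈ I := fun i => Ideal.Quotient.eq.1 (congrFun hde i)
  have hdε : ∀ i, ε * d i = d i := by
    intro i
    have h1 := ((mem_cornerKer h).1 (hdI i)).1
    rw [mul_sub, ← mul_assoc, h.idem, sub_left_inj] at h1
    exact h1
  have hdΦ : ∀ i, Φ (d i) = E i i := by
    intro i
    have h1 := ((mem_cornerKer h).1 (hdI i)).2
    rw [map_sub, map_mul, h.map_eps, one_mul, hs, sub_eq_zero] at h1
    exact h1
  have hdsum : ∑ i, d i = ε := by
    refine eq_of_isNilpotent_sub_of_isIdempotentElem_of_commute hd.isIdempotentElem_sum h.idem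
      (h.nil _ ?_ ?_) (hεc _).symm
    · rw [mul_sub, Finset.mul_sum, h.idem]
      simp [hdε]
    · rw [map_sub, map_sum, h.map_eps]
      simp [hdΦ, hE1]
  -- matrix units
  set i0 : Fin n := ⟨0, hn0⟩ with hi0
  choose a' ha' using fun i => h.surj (E i i0)
  choose c' hc' using fun i => h.surj (E i0 i)
  let a : Fin n → A := fun i => d i * a' i * d i0
  let c0 : Fin n → A := fun i => d i0 * c' i * d i
  have hΦa : ∀ i, Φ (a i) = E i i0 := fun i => by simp [a, hdΦ, ha', hE]
  have hΦc0 : ∀ i, Φ (c0 i) = E i0 i := fun i => by simp [c0, hdΦ, hc', hE]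
  have hidd : ∀ i, d i * d i = d i := fun i => hd.idem i
  have hu : ∀ i, ∃ u : Aˣ, (u : A) = 1 + (c0 i * a i - d i0) := by
    intro i
    refine (IsNilpotent.isUnit_one_add (h.nil _ ?_ ?_))
    · rw [mul_sub, hdε, ← mul_assoc, show ε * c0 i = c0 i by
        simp only [c0, ← mul_assoc, hdε]]
    · rw [map_sub, map_mul, hΦa, hΦc0, hdΦ, hE, if_pos rfl, sub_self]
  choose u hu using hu
  have hu0 : ∀ i, (u i : A) * d i0 = c0 i * a i := by
    intro i
    rw [hu, add_mul, one_mul, sub_mul, hidd]
    rw [show c0 i * a i * d i0 = c0 i * a i by simp only [a, mul_assoc, hidd]]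
    abel
  have hu1 : ∀ i, d i0 * (u i : A) = c0 i * a i := by
    intro i
    rw [hu, mul_add, mul_one, mul_sub, hidd]
    rw [show d i0 * (c0 i * a i) = c0 i * a i by simp only [c0, ← mul_assoc, hidd]]
    abel
  let c : Fin n → A := fun i => (↑(u i)⁻¹ : A) * c0 i
  have hud : ∀ i, (↑(u i)⁻¹ : A) * d i0 = d i0 * (↑(u i)⁻¹ : A) := fun i =>
    ((show Commute (u i : A) (d i0) from (hu0 i).trans (hu1 i).symm).units_inv_left).eq
  have hca : ∀ i, c i * a i = d i0 := fun i => by
    simp only [c, mul_assoc]
    rw [← hu0, ← mul_assoc, Units.inv_mul, one_mul]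
  have hcd : ∀ i, c i * d i = c i := fun i => by simp only [c, c0, mul_assoc, hidd]
  have hdc : ∀ i, d i0 * c i = c i := fun i => by
    simp only [c]
    rw [← mul_assoc, ← hud, mul_assoc]
    congr 1
    simp only [c0, ← mul_assoc, hidd]
  have hda : ∀ i, d i * a i = a i := fun i => by simp only [a, ← mul_assoc, hidd]
  have had : ∀ i, a i * d i0 = a i := fun i => by simp only [a, mul_assoc, hidd]
  have hΦc : ∀ i, Φ (c i) = E i0 i := fun i => by
    have h2 : Φ (u i : A) = 1 := by
      rw [hu, map_add, map_one, map_sub, map_mul, hΦa, hΦc0, hdΦ, hE, if_pos rfl, sub_self, add_zero]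
    have h3 := congrArg Φ (u i).inv_mul
    rw [map_mul, map_one, h2, mul_one] at h3
    simp only [c, map_mul, h3, hΦc0, one_mul]
  have hac : ∀ i, a i * c i = d i := by
    intro i
    refine (sub_eq_zero.1 (?_ : d i - a i * c i = 0)).symm
    have hid : (d i - a i * c i) * (d i - a i * c i) = d i - a i * c i := by
      have e1 : d i * (a i * c i) = a i * c i := by rw [← mul_assoc, hda]
      have e2 : a i * c i * d i = a i * c i := by rw [mul_assoc, hcd]
      have e3 : a i * c i * (a i * c i) = a i * c i := by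
        rw [mul_assoc, ← mul_assoc (c i), hca, hdc]
      rw [sub_mul, mul_sub, mul_sub, hidd, e1, e2, e3, sub_self, sub_zero]
    obtain ⟨m, hm⟩ := h.nil (d i - a i * c i)
      (by rw [mul_sub, hdε, ← mul_assoc, show ε * a i = a i by
          simp only [a, ← mul_assoc, hdε]])
      (by rw [map_sub, map_mul, hdΦ, hΦa, hΦc, hE, if_pos rfl, sub_self])
    rcases m with - | m
    · rw [pow_zero] at hm
      calc d i - a i * c i = 1 * (d i - a i * c i) := (one_mul _).symm
        _ = 0 := by rw [hm, zero_mul]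
    · rwa [(show IsIdempotentElem _ from hid).pow_succ_eq] at hm
  have hne : ∀ j l, j ≠ l → c j * a l = 0 := by
    intro j l hjl
    rw [← hcd, ← hda, mul_assoc, ← mul_assoc (d j), hd.ortho hjl, zero_mul, mul_zero]
  let F : Fin n → Fin n → A := fun i j => a i * c j
  have hmul : ∀ i j l, F i j * F j l = F i l := fun i j l => by
    simp only [F]
    rw [mul_assoc, ← mul_assoc (c j), hca, hdc]
  have hmne : ∀ i j j' l, j ≠ j' → F i j * F j' l = 0 := fun i j j' l hjj => by
    simp only [F]
    rw [mul_assoc, ← mul_assoc (c j), hne j j' hjj, zero_mul, mul_zero]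
  have hsum : ∑ i, F i i = ε := by
    rw [← hdsum]
    exact Finset.sum_congr rfl fun i _ => hac i
  have heps : ∀ i j, ε * F i j = F i j := fun i j => by
    simp only [F, a, ← mul_assoc, hdε]
  have hεF : ∀ i j, F i j * ε = F i j := fun i j => by rw [← (hεc _).eq, heps]
  have hΦF : ∀ i j, Φ (F i j) = E i j := fun i j => by simp [F, hΦa, hΦc, hE]
  clear_value F
  have hmulc : ∀ i j l x, F i j * (F j l * x) = F i l * x := fun i j l x => by
    rw [← mul_assoc, hmul]
  -- the space cut out by the central functionals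
  obtain ⟨f0, hf0⟩ : ∃ f0, f0 = F i0 i0 := ⟨_, rfl⟩
  have hff : f0 * f0 = f0 := by rw [hf0, hmul]
  let S : Submodule k A := Submodule.span k
    ({x | ∃ y, x = π * y} ∪ {x | ∃ y z, x = y * z - z * y} ∪ {x | ∃ y, x = y - ε * y})
  have htr0 : ∀ y, (LinearMap.trace k V) (Φ (π * y)) = 0 := fun y => by
    simp [map_pi h]
  have hkerS : ∀ x, Φ x = 0 → x ∈ S := by
    intro x hx
    by_contra hxS
    obtain ⟨φ, hφx, hφ⟩ := Submodule.exists_dual_map_eq_bot_of_notMem hxS inferInstance
    have hφ0 : ∀ y ∈ S, φ y = 0 := fun y hy => by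
      have : φ y ∈ S.map φ := ⟨y, hy, rfl⟩
      rwa [hφ, Submodule.mem_bot] at this
    -- functionals are translates of `lam`
    let T : A →ₗ[k] Module.Dual k A :=
      { toFun := fun z => lam ∘ₗ LinearMap.mulLeft k z
        map_add' := fun z z' => LinearMap.ext fun y => by simp [add_mul]
        map_smul' := fun r z => LinearMap.ext fun y => by simp }
    have hTinj : Function.Injective T := (injective_iff_map_eq_zero T).2 fun z hz =>
      h.lam_nondeg z fun y => LinearMap.congr_fun hz y
    have hTsurj : Function.Surjective T :=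
      (LinearMap.injective_iff_surjective_of_finrank_eq_finrank
        (Subspace.dual_finrank_eq (K := k) (V := A)).symm).1 hTinj
    have hz0 : ∀ ψ : Module.Dual k A, (∀ y ∈ S, ψ y = 0) →
        ∃ r : k, ∀ y, ψ y = r * lam (π ^ (q - 1) * y) := by
      intro ψ hψ
      obtain ⟨z, hz⟩ := hTsurj ψ
      have hz' : ∀ y, ψ y = lam (z * y) := fun y => by rw [← hz]; rfl
      have hzc : ∀ y, Commute z y := by
        intro y
        refine sub_eq_zero.1 (h.lam_nondeg _ fun w => ?_)
        have h1 : ψ (y * w - w * y) = 0 := hψ _ (Submodule.subset_span (Or.inl (Or.inr ⟨y, w, rfl⟩)))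
        rw [map_sub, sub_eq_zero, hz', hz'] at h1
        rw [sub_mul, map_sub, mul_assoc, h1, ← mul_assoc, h.lam_comm (z * w), mul_assoc,
          sub_self]
      have hεz : ε * z = z := by
        refine (sub_eq_zero.1 (h.lam_nondeg _ fun w => ?_)).symm
        have h1 : ψ (w - ε * w) = 0 := hψ _ (Submodule.subset_span (Or.inr ⟨w, rfl⟩))
        rw [map_sub, hz', hz', ← mul_assoc, ← (hεc z).eq] at h1
        rw [sub_mul, map_sub, h1]
      have hπz : π * z = 0 := by
        refine h.lam_nondeg _ fun w => ?_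
        have h1 : ψ (π * w) = 0 := hψ _ (Submodule.subset_span (Or.inl (Or.inl ⟨w, rfl⟩)))
        rwa [hz', ← mul_assoc, ← (h.pi_central z).eq] at h1
      obtain ⟨co, hco⟩ := h.center z hzc hεz
      have hlow : ∀ l, l + 1 < q → co l = 0 := by
        intro l
        induction l using Nat.strong_induction_on with
        | _ l ih =>
          intro hl
          have h1 : π ^ (q - 1 - l) * z = 0 := by
            rw [show q - 1 - l = (q - 2 - l) + 1 by omega, pow_succ, mul_assoc, hπz, mul_zero]
          rw [hco, Finset.mul_sum, Finset.sum_eq_single l] at h1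
          · rw [mul_smul_comm, ← mul_assoc, ← pow_add, show q - 1 - l + l = q - 1 by omega] at h1
            refine (smul_eq_zero.1 h1).resolve_right fun h2 => h.pi_pow_ne ?_
            rw [show q - 1 = (q - 2) + 1 by omega, pow_succ] at h2 ⊢
            rwa [mul_assoc, ← (hεc π).eq, h.eps_pi] at h2
          · intro m hm hml
            rcases Nat.lt_or_ge m l with hlt | hge
            · rw [ih m hlt (by omega), zero_smul, mul_zero]
            · rw [mul_smul_comm, ← mul_assoc, ← pow_add,
                show q - 1 - l + m = q + (m - l - 1) by omega, pow_add, h.pi_pow, zero_mul,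
                zero_mul, smul_zero]
          · exact fun hh => absurd (Finset.mem_range.2 (by omega)) hh
      refine ⟨co (q - 1), fun y => ?_⟩
      have hz1 : z = co (q - 1) • π ^ (q - 1) := by
        rw [hco, Finset.sum_eq_single (q - 1)]
        · congr 1
          rw [show q - 1 = (q - 2) + 1 by have := h.one_lt; omega, pow_succ, mul_assoc,
            ← (hεc π).eq, h.eps_pi]
        · intro m hm hne'
          rw [Finset.mem_range] at hm
          rw [hlow m (by omega), zero_smul]
        · exact fun hh => absurd (Finset.mem_range.2 (by have := h.one_lt; omega)) hh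
      rw [hz', hz1, smul_mul_assoc, map_smul, smul_eq_mul]
    obtain ⟨r, hr⟩ := hz0 φ hφ0
    obtain ⟨r', hr'⟩ := hz0 ((LinearMap.trace k V) ∘ₗ Φ.toLinearMap) fun y hy => by
      induction hy using Submodule.span_induction with
      | mem y hy =>
        rcases hy with (⟨w, rfl⟩ | ⟨w, w', rfl⟩) | ⟨w, rfl⟩
        · exact htr0 w
        · show (LinearMap.trace k V) (Φ (w * w' - w' * w)) = 0
          rw [map_sub, map_mul, map_mul, map_sub, LinearMap.trace_mul_comm, sub_self]
        · show (LinearMap.trace k V) (Φ (w - ε * w)) = 0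
          simp [h.map_eps]
      | zero => simp
      | add y z _ _ h1 h2 => rw [map_add, h1, h2, add_zero]
      | smul t y _ h1 => rw [map_smul, h1, smul_zero]
    have hr0 : r' ≠ 0 := by
      intro h0
      obtain ⟨w, hw⟩ := h.surj (E i0 i0)
      have h1 := hr' w
      rw [h0, zero_mul] at h1
      have h2 : (LinearMap.trace k V) (E i0 i0) = 1 := by
        simp [E, LinearMap.trace_smulRight]
      simp only [LinearMap.comp_apply, AlgHom.toLinearMap_apply, hw, h2] at h1
      exact one_ne_zero h1
    have h1 := hr' x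
    simp only [LinearMap.comp_apply, AlgHom.toLinearMap_apply, hx, map_zero] at h1
    refine hφx ?_
    rw [hr x, (mul_eq_zero.1 h1.symm).resolve_left hr0, mul_zero]
  -- the corner at `f0`
  let J0 : Set A := {x | f0 * x * f0 = x ∧ Φ x = 0}
  have hεf0 : ε * f0 = f0 := by rw [hf0, heps]
  have hJI : ∀ x ∈ J0, x ∈ I := fun x hx => ⟨by rw [← hx.1, ← mul_assoc, ← mul_assoc, hεf0], hx.2⟩
  let Tm : A →ₗ[k] A := ∑ i, LinearMap.mulLeft k (F i0 i) ∘ₗ LinearMap.mulRight k (F i i0)
  have hTm : ∀ x, Tm x = ∑ i, F i0 i * (x * F i i0) := fun x => by simp [Tm, LinearMap.sum_apply]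
  have hsand : ∀ y, ∃ r : k, ∃ x ∈ J0, f0 * y * f0 = r • f0 + x := by
    intro y
    obtain ⟨r, hr⟩ : ∃ r : k, Φ (f0 * y * f0) = r • E i0 i0 := by
      refine ⟨b.coord i0 (Φ y (b i0)), ?_⟩
      rw [map_mul, map_mul, hf0, hΦF]
      refine LinearMap.ext fun v => ?_
      simp [E, Module.End.mul_apply, smul_smul, mul_comm]
    refine ⟨r, f0 * y * f0 - r • f0, ⟨?_, ?_⟩, by abel⟩
    · simp only [mul_sub, sub_mul, mul_smul_comm, smul_mul_assoc, hff, ← mul_assoc]
      rw [mul_assoc (f0 * y) f0, hff]
    · rw [map_sub, map_smul, hr, hf0, hΦF, sub_self]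
  -- one step of the iteration
  have hstep : ∀ x ∈ J0, ∃ y, ∃ x' ∈ Submodule.span k {z | ∃ u ∈ J0, ∃ v ∈ J0, z = u * v},
      x = π * y + x' := by
    intro x hx
    have hkey : ∀ z ∈ S, ∃ y, ∃ x' ∈ Submodule.span k {z | ∃ u ∈ J0, ∃ v ∈ J0, z = u * v},
        Tm z = π * y + x' := by
      intro z hz
      induction hz using Submodule.span_induction with
      | mem z hz =>
        rcases hz with (⟨w, rfl⟩ | ⟨w, w', rfl⟩) | ⟨w, rfl⟩
        · refine ⟨Tm w, 0, Submodule.zero_mem _, ?_⟩
          rw [add_zero, hTm, hTm, Finset.mul_sum]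
          refine Finset.sum_congr rfl fun i _ => ?_
          rw [mul_assoc π w, ← mul_assoc, ← (h.pi_central (F i0 i)).eq, mul_assoc]
        · refine ⟨0, Tm (w * w' - w' * w), ?_, by rw [mul_zero, zero_add]⟩
          let W : A → Fin n → Fin n → A := fun y i j => f0 * (F i0 i * y * F j i0) * f0
          have hW : ∀ y y' i, F i0 i * (y * y' * F i i0) = F i0 i * (y * (ε * (y' * F i i0))) :=
            fun y y' i => by
              rw [← mul_assoc ε y', (hεc y').eq, mul_assoc y' ε, heps, mul_assoc]
          have hprod : ∀ y y' i j, W y i j * W y' j i = F i0 i * (y * (F j j * (y' * F i i0))) := by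
            intro y y' i j
            simp only [W, hf0, mul_assoc]
            simp only [hmulc, hmul]
          have hexp : Tm (w * w' - w' * w) =
              ∑ i, ∑ j, (W w i j * W w' j i - W w' j i * W w i j) := by
            rw [map_sub, hTm, hTm]
            simp only [Finset.sum_sub_distrib, hprod]
            congr 1
            · refine Finset.sum_congr rfl fun i _ => ?_
              rw [hW, ← hsum]
              simp only [Finset.mul_sum, Finset.sum_mul]
            · rw [Finset.sum_comm]
              refine Finset.sum_congr rfl fun i _ => ?_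
              rw [hW, ← hsum]
              simp only [Finset.mul_sum, Finset.sum_mul]
          rw [hexp]
          refine Submodule.sum_mem _ fun i _ => Submodule.sum_mem _ fun j _ => ?_
          obtain ⟨r, x1, hx1, e1⟩ := hsand (F i0 i * w * F j i0)
          obtain ⟨r', x2, hx2, e2⟩ := hsand (F i0 j * w' * F i i0)
          simp only [W, e1, e2]
          have hl : ∀ v ∈ J0, f0 * v = v := fun v hv => by
            rw [← hv.1, ← mul_assoc, ← mul_assoc, hff]
          have hr : ∀ v ∈ J0, v * f0 = v := fun v hv => by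
            rw [← hv.1, mul_assoc, hff]
          have : (r • f0 + x1) * (r' • f0 + x2) - (r' • f0 + x2) * (r • f0 + x1) =
              x1 * x2 - x2 * x1 := by
            simp only [mul_add, add_mul, mul_smul_comm, smul_mul_assoc, hl _ hx1, hl _ hx2,
              hr _ hx1, hr _ hx2, smul_smul, mul_comm r r', smul_add]
            abel
          rw [this]
          exact Submodule.sub_mem _ (Submodule.subset_span ⟨_, hx1, _, hx2, rfl⟩)
            (Submodule.subset_span ⟨_, hx2, _, hx1, rfl⟩)
        · refine ⟨0, 0, Submodule.zero_mem _, ?_⟩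
          rw [mul_zero, add_zero, map_sub, sub_eq_zero, hTm, hTm]
          refine Finset.sum_congr rfl fun i _ => ?_
          rw [mul_assoc ε w, ← mul_assoc (F i0 i) ε, hεF]
      | zero => exact ⟨0, 0, Submodule.zero_mem _, by simp⟩
      | add y z _ _ h1 h2 =>
        obtain ⟨y1, x1, hx1, e1⟩ := h1
        obtain ⟨y2, x2, hx2, e2⟩ := h2
        exact ⟨y1 + y2, x1 + x2, Submodule.add_mem _ hx1 hx2, by rw [map_add, e1, e2, mul_add]; abel⟩
      | smul t y _ h1 =>
        obtain ⟨y1, x1, hx1, e1⟩ := h1
        exact ⟨t • y1, t • x1, Submodule.smul_mem _ t hx1, by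
          rw [map_smul, e1, smul_add, mul_smul_comm]⟩
    obtain ⟨y, x', hx', he⟩ := hkey x (hkerS x hx.2)
    refine ⟨y, x', hx', ?_⟩
    rw [← he, hTm, Finset.sum_eq_single i0]
    · rw [← hf0, ← mul_assoc, hx.1]
    · intro i _ hi
      rw [← hx.1]
      have h0 : F i0 i * f0 = 0 := by rw [hf0]; exact hmne _ _ _ _ hi
      simp [← mul_assoc, h0]
    · exact fun hh => absurd (Finset.mem_univ _) hh
  obtain ⟨m, hm⟩ := exists_pow_cornerKer_eq_zero h
  have hiter : ∀ l : ℕ, ∀ x ∈ J0, ∃ y, ∃ x' ∈ I ^ (l + 1), x = π * y + x' := by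
    intro l
    induction l with
    | zero =>
      exact fun x hx => ⟨0, x, by
        rw [zero_add, Submodule.pow_one]; exact hJI x hx, by rw [mul_zero, zero_add]⟩
    | succ l ih =>
      intro x hx
      obtain ⟨y, x', hx', rfl⟩ := hstep x hx
      have hgen : ∀ z ∈ Submodule.span k {z | ∃ u ∈ J0, ∃ v ∈ J0, z = u * v},
          ∃ y, ∃ x' ∈ I ^ (l + 1 + 1), z = π * y + x' := by
        intro z hz
        induction hz using Submodule.span_induction with
        | mem z hz =>
          obtain ⟨u, hu', v, hv, rfl⟩ := hz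
          obtain ⟨y, u', hu'', rfl⟩ := ih u hu'
          refine ⟨y * v, u' * v, ?_, by rw [add_mul, mul_assoc]⟩
          rw [Submodule.pow_succ]
          exact Ideal.mul_mem_mul hu'' (hJI v hv)
        | zero => exact ⟨0, 0, zero_mem _, by simp⟩
        | add y z _ _ h1 h2 =>
          obtain ⟨y1, x1, hx1, rfl⟩ := h1
          obtain ⟨y2, x2, hx2, rfl⟩ := h2
          exact ⟨y1 + y2, x1 + x2, add_mem hx1 hx2, by rw [mul_add]; abel⟩
        | smul t y _ h1 =>
          obtain ⟨y1, x1, hx1, rfl⟩ := h1
          refine ⟨t • y1, t • x1, ?_, by rw [smul_add, mul_smul_comm]⟩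
          rw [Algebra.smul_def]
          exact Ideal.mul_mem_left _ _ hx1
      obtain ⟨y', x'', hx'', rfl⟩ := hgen x' hx'
      exact ⟨y + y', x'', hx'', by rw [mul_add]; abel⟩
  have hJπ : ∀ x ∈ J0, ∃ y, x = π * (f0 * y * f0) := by
    intro x hx
    obtain ⟨y, x', hx', he⟩ := hiter m x hx
    have h0 : x' = 0 := by
      have : x' ∈ I ^ m := Ideal.pow_le_pow_right (Nat.le_succ m) hx'
      rwa [hm, Ideal.mem_bot] at this
    refine ⟨y, ?_⟩
    conv_lhs => rw [← hx.1, he, h0, add_zero]
    rw [← mul_assoc f0 π, ← (h.pi_central f0).eq, mul_assoc, mul_assoc, mul_assoc]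
  have hcorner : ∀ l : ℕ, ∀ y, ∃ co : ℕ → k, ∃ w,
      f0 * y * f0 = ∑ j ∈ Finset.range l, co j • (π ^ j * f0) + π ^ l * (f0 * w * f0) := by
    intro l
    induction l with
    | zero => exact fun y => ⟨0, y, by simp⟩
    | succ l ih =>
      intro y
      obtain ⟨co, w, e⟩ := ih y
      obtain ⟨r, x, hx, ew⟩ := hsand w
      obtain ⟨w', rfl⟩ := hJπ x hx
      refine ⟨Function.update co l r, w', ?_⟩
      rw [e, ew, Finset.sum_range_succ, Function.update_self, mul_add, mul_smul_comm, ← mul_assoc,
        ← pow_succ, add_assoc]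
      congr 1
      exact Finset.sum_congr rfl fun j hj => by
        rw [Function.update_of_ne (Finset.mem_range.1 hj).ne]
  have hspan : ∀ x, ε * x = x → ∃ c : ℕ → Fin n → Fin n → k,
      x = ∑ l ∈ Finset.range q, ∑ i, ∑ j, c l i j • (π ^ l * F i j) := by
    intro x hx
    choose co w hco using fun i j => hcorner q (F i0 i * x * F j i0)
    refine ⟨fun l i j => co i j l, ?_⟩
    have hxε : x = ε * x * ε := by rw [hx, ← (hεc x).eq, hx]
    conv_lhs => rw [hxε, ← hsum, Finset.sum_mul, Finset.sum_mul]
    rw [Finset.sum_comm]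
    refine Finset.sum_congr rfl fun i _ => ?_
    rw [Finset.mul_sum, Finset.sum_comm]
    refine Finset.sum_congr rfl fun j _ => ?_
    have e : F i i * x * F j j = F i i0 * (f0 * (F i0 i * x * F j i0) * f0) * F i0 j := by
      simp only [hf0, mul_assoc, hmul]
      simp only [← mul_assoc, hmul]
    rw [e, hco, h.pi_pow, zero_mul, add_zero, Finset.mul_sum, Finset.sum_mul]
    refine Finset.sum_congr rfl fun l _ => ?_
    rw [mul_smul_comm, smul_mul_assoc, ← mul_assoc, ← ((h.pi_central _).pow_left l).eq, mul_assoc,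
      mul_assoc, hf0, hmul, hmul]
  have hann : ∀ x, ε * x = x → π ^ (q - 1) * x = 0 → ∃ w, x = π * w := by
    intro x hx hx0
    obtain ⟨c, hc⟩ := hspan x hx
    have hq := h.one_lt
    have hzero : π ^ (q - 1) * ∑ i, ∑ j, c 0 i j • F i j = 0 := by
      rw [hc, Finset.mul_sum, Finset.sum_eq_single 0] at hx0
      · simpa using hx0
      · intro l _ hl
        simp only [Finset.mul_sum, mul_smul_comm, ← mul_assoc, ← pow_add]
        rw [show q - 1 + l = q + (l - 1) by omega, pow_add, h.pi_pow]
        simp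
      · exact fun hh => absurd (Finset.mem_range.2 (by omega)) hh
    have hc0 : ∀ i j, c 0 i j = 0 := by
      intro i j
      have h1 := congrArg (fun y => F i0 i * y * F j i0) hzero
      simp only [mul_zero, zero_mul, ← mul_assoc, ← ((h.pi_central (F i0 i)).pow_left (q - 1)).eq,
        mul_assoc, Finset.mul_sum, Finset.sum_mul, mul_smul_comm, smul_mul_assoc] at h1
      rw [Finset.sum_eq_single i, Finset.sum_eq_single j] at h1
      · rw [hmul i j, ← mul_assoc (F i0 i), ← ((h.pi_central (F i0 i)).pow_left (q - 1)).eq,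
          mul_assoc, hmul] at h1
        refine (smul_eq_zero.1 h1).resolve_right fun h2 => h.pi_pow_ne ?_
        calc π ^ (q - 1) = π ^ (q - 1) * ε := by
              rw [show q - 1 = (q - 2) + 1 by omega, pow_succ, mul_assoc, ← (hεc π).eq, h.eps_pi]
          _ = ∑ l, F l i0 * (π ^ (q - 1) * F i0 i0) * F i0 l := by
              rw [← hsum, Finset.mul_sum]
              refine Finset.sum_congr rfl fun l _ => ?_
              rw [← mul_assoc (F l i0), ← ((h.pi_central _).pow_left _).eq, mul_assoc, mul_assoc,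
                hmul, hmul]
          _ = 0 := by simp [h2]
      · intro j' _ hj'
        rw [hmne i j' j i0 hj', mul_zero, mul_zero, smul_zero]
      · exact fun hh => absurd (Finset.mem_univ _) hh
      · intro i' _ hi'
        refine Finset.sum_eq_zero fun j' _ => ?_
        rw [← mul_assoc (F i0 i), ← ((h.pi_central (F i0 i)).pow_left (q - 1)).eq, mul_assoc,
          ← mul_assoc (F i0 i) (F i' j'), hmne i0 i i' j' (Ne.symm hi'), zero_mul, mul_zero,
          smul_zero]
      · exact fun hh => absurd (Finset.mem_univ _) hh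
    refine ⟨∑ l ∈ Finset.range (q - 1), ∑ i, ∑ j, c (l + 1) i j • (π ^ l * F i j), ?_⟩
    rw [hc, show q = q - 1 + 1 by omega, Finset.sum_range_succ']
    simp only [hc0, zero_smul, Finset.sum_const_zero, add_zero, Finset.mul_sum, mul_smul_comm,
      ← mul_assoc, ← pow_succ']
    rfl
  exact ⟨n, F, hn0, hmul, hmne, hsum, heps, hspan, hann⟩

end Cfsg.Agent.H20.Cyclic
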