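import Cfsg.Agent.H57.Cyclic.Decomp
import Cfsg.Agent.H42.DegreeBound

/-!
# Decomposition numbers against regular values

A column of decomposition numbers is orthogonal to the values at a regular element; with orthogonal
orbit sums this determines the regular values on the exceptional characters.
-/

set_option autoImplicit false
set_option linter.unusedSectionVars false

open scoped ComplexConjugate

namespace Cfsg.Agent.H20.Cyclic

open Cfsg
open Cfsg.Agent.H22 (IsMaxEl elTop dpart)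
open Cfsg.Agent.H41 (ResField)
open Cfsg.Agent.H57.Cyclic (dec cb cdeg cb_spec)

/-- Functions orthogonal like the sums over free orbits of nontrivial characters determine the
coefficients of a constant. -/
theorem eq_of_orbit_relation {ι V : Type*} [Fintype ι] [DecidableEq ι] [Fintype V] (q e : ℕ)
    (w : ι → V → ℂ) (hmul : Fintype.card ι * e = q - 1) (hq : 0 < q)
    (hw0 : ∀ i, ∑ v, w i v = -(e : ℂ))
    (hww : ∀ i j, ∑ v, w i v * conj (w j v) = (if i = j then (q : ℂ) * e else 0) - (e : ℂ) ^ 2)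
    (f : ι → ℂ) (S : ℂ) (he : 0 < e) (h : ∀ v, S + ∑ i, f i * w i v = 0) (j : ι) : f j = S := by
  classical
  have key : ∀ j, (q : ℂ) * f j = (e : ℂ) * ∑ i, f i + S := by
    intro j
    have h1 : ∑ v, (S + ∑ i, f i * w i v) * conj (w j v) = 0 := by simp [h]
    simp only [add_mul, Finset.sum_add_distrib, Finset.sum_mul, mul_assoc, ← Finset.mul_sum] at h1
    rw [Finset.sum_comm] at h1
    simp only [← Finset.mul_sum, hww, mul_sub, Finset.sum_sub_distrib, mul_ite, mul_zero,
      Finset.sum_ite_eq', Finset.mem_univ, if_true, ← Finset.sum_mul, ← map_sum, hw0, map_neg,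
      Complex.conj_natCast] at h1
    refine mul_right_cancel₀ (Nat.cast_ne_zero.2 he.ne' : (e : ℂ) ≠ 0) ?_
    linear_combination h1
  have hsum : (∑ i, f i) = (Fintype.card ι : ℂ) * S := by
    have h1 : (q : ℂ) * ∑ i, f i = (Fintype.card ι : ℂ) * ((e : ℂ) * ∑ i, f i + S) := by
      rw [Finset.mul_sum, Finset.sum_congr rfl fun i _ => key i, Finset.sum_const, Finset.card_univ,
        nsmul_eq_mul]
    have hm : (Fintype.card ι : ℂ) * e = (q : ℂ) - 1 := by
      rw [← Nat.cast_mul, hmul, Nat.cast_sub (by omega), Nat.cast_one]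
    linear_combination h1 + (∑ i, f i) * hm
  have hm : (Fintype.card ι : ℂ) * e = (q : ℂ) - 1 := by
    rw [← Nat.cast_mul, hmul, Nat.cast_sub (by omega), Nat.cast_one]
  have h2 := key j
  rw [hsum] at h2
  refine mul_left_cancel₀ (Nat.cast_ne_zero.2 hq.ne' : (q : ℂ) ≠ 0) ?_
  linear_combination h2 + S * hm

universe u

variable {G : Type u} [Group G] [Fintype G] {p : ℕ} [Fact p.Prime] {M : Ideal Cfsg.AlgInt}
  [M.IsMaximal] [CharP (ResField M) p] {B : Set (Cfsg.IrrCharacter G)} {P : Subgroup G}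
  {e : MonoidAlgebra (ResField M) G}

open scoped Classical in
/-- A column of decomposition numbers is orthogonal to a regular column. -/
theorem sum_dec_mul (hM : Cfsg.IsPModular p M) (hB : Cfsg.IsPBlock M B)
    (hm : IsMaxEl p ⊤ (elTop M B) (P, e)) (hcyc : IsCyclic P) {v : G} (hv : v ∈ P) (hv1 : v ≠ 1)
    {g : G} (hg : ¬ p ∣ orderOf g) :
    ∑ χ ∈ Finset.univ.filter (· ∈ B), dec p M P e (χ : G → ℂ) v * (χ : G → ℂ) g = 0 := by
  let _ : Fintype (H40.StarTrace.CZ v) := Fintype.ofFinite _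
  obtain ⟨hc, -, -, -⟩ := cb_spec hM hB hm hcyc hv
  simp only [dec, div_mul_eq_mul_div, ← Finset.sum_div]
  rw [div_eq_zero_iff]
  left
  simp only [dpart, finsum_eq_sum_of_fintype, Finset.sum_mul]
  rw [Finset.sum_comm]
  refine Finset.sum_eq_zero fun h _ => ?_
  by_cases hh : p ∣ orderOf h
  · refine Finset.sum_eq_zero fun χ _ => ?_
    rw [H40.blockCoeff_eq_zero_of_singular hM hc hh, zero_mul, zero_mul]
  · have hsing : p ∣ orderOf ((h : G) * v) := by
      obtain ⟨j, hj⟩ := H57.Cyclic.exists_orderOf_eq hM hB hm hcyc hv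
      have hcm : Commute (h : G) v := H32.mem_centralizer_zpowers_iff.1 h.2
      rw [hcm.orderOf_mul_eq_mul_orderOf_of_coprime (by
        rw [hj, Subgroup.orderOf_coe]
        exact (H22.coprime_pow_of_not_dvd hh j).symm), hj]
      have hj0 : j ≠ 0 := by
        rintro rfl
        exact hv1 (orderOf_eq_one_iff.1 (by simpa using hj))
      exact dvd_mul_of_dvd_right (dvd_pow_self p hj0) _
    have h0 := H40.sum_block_mul_conj_eq_zero hM hB (x := g⁻¹) (y := ((h : G) * v))
      (by rwa [orderOf_inv]) hsing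
    have h1 := congrArg conj h0
    simp only [map_sum, map_mul, Complex.conj_conj, map_zero] at h1
    rw [← mul_zero (Cfsg.blockCoeff (cb p M P e v) h), ← h1, Finset.mul_sum]
    refine Finset.sum_congr rfl fun χ _ => ?_
    rw [← H26.irr_inv χ, inv_inv]
    ring

open scoped Classical in
/-- Signed characters agreeing on the nontrivial `p`-elements have degrees congruent modulo the
`p`-part of the order. -/
theorem modEq_of_eq_on_pElements {G : Type*} [Group G] [Finite G] {p : ℕ} [Fact p.Prime]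
    (χ ψ : Cfsg.IrrCharacter G) (a b : ℤ)
    (h : ∀ x : G, x ≠ 1 → (∃ j : ℕ, orderOf x = p ^ j) →
      (a : ℂ) * (χ : G → ℂ) x = (b : ℂ) * (ψ : G → ℂ) x) :
    a * (Cfsg.charDegree (χ : G → ℂ) : ℤ) ≡ b * (Cfsg.charDegree (ψ : G → ℂ) : ℤ)
      [ZMOD (p : ℤ) ^ (Nat.card G).factorization p] := by
  let _ : Fintype G := Fintype.ofFinite G
  obtain ⟨S⟩ : Nonempty (Sylow p G) := inferInstance
  let _ : Fintype (S : Subgroup G) := Fintype.ofFinite _
  obtain ⟨m, hm⟩ := H42.exists_nat_sum_subgroup χ (S : Subgroup G)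
  obtain ⟨n, hn⟩ := H42.exists_nat_sum_subgroup ψ (S : Subgroup G)
  have hcard : Nat.card (S : Subgroup G) = p ^ (Nat.card G).factorization p :=
    S.card_eq_multiplicity
  refine Int.modEq_iff_dvd.2 ⟨b * n - a * m, ?_⟩
  have h1 : ∑ y : (S : Subgroup G), ((b : ℂ) * (ψ : G → ℂ) y - (a : ℂ) * (χ : G → ℂ) y) =
      (b : ℂ) * (ψ : G → ℂ) 1 - (a : ℂ) * (χ : G → ℂ) 1 := by
    rw [Finset.sum_eq_single (1 : (S : Subgroup G))]
    · rfl
    · intro y _ hy
      obtain ⟨j, hj⟩ := IsPGroup.iff_orderOf.1 S.2 y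
      rw [h (y : G) (fun e => hy (Subtype.ext e)) ⟨j, by rwa [Subgroup.orderOf_coe]⟩, sub_self]
    · exact fun hh => absurd (Finset.mem_univ _) hh
  rw [Finset.sum_sub_distrib, ← Finset.mul_sum, ← Finset.mul_sum, hm, hn, hcard,
    H42.irr_one_eq, H42.irr_one_eq] at h1
  have h2 : (((b * (Cfsg.charDegree (ψ : G → ℂ) : ℤ) - a * (Cfsg.charDegree (χ : G → ℂ) : ℤ)) : ℤ) : ℂ)
      = ((((p : ℤ) ^ (Nat.card G).factorization p) * (b * n - a * m) : ℤ) : ℂ) := by
    push_cast at h1 ⊢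
    linear_combination -h1
  exact_mod_cast h2

/-- Congruent degrees in the signed relation of a cyclic defect group have height zero. -/
theorem blockHeight_eq_zero {G : Type*} [Group G] [Finite G] {p : ℕ} [Fact p.Prime]
    {M : Ideal Cfsg.AlgInt} [M.IsMaximal] {B : Set (Cfsg.IrrCharacter G)}
    (hB : Cfsg.IsPBlock M B) (hd : 0 < Cfsg.blockDefect p B) {χ₀ : Cfsg.IrrCharacter G}
    (hχ₀ : χ₀ ∈ B) (h0 : Cfsg.blockHeight p B (χ₀ : G → ℂ) = 0) {χ : Cfsg.IrrCharacter G}
    (hχ : χ ∈ B) (a b : ℤ) (ha : ¬ (p : ℤ) ∣ a)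
    (h : a * (Cfsg.charDegree (χ₀ : G → ℂ) : ℤ) ≡ b * (Cfsg.charDegree (χ : G → ℂ) : ℤ)
      [ZMOD (p : ℤ) ^ (Nat.card G).factorization p]) :
    Cfsg.blockHeight p B (χ : G → ℂ) = 0 := by
  by_contra hne
  have e1 := H42.factorization_degree_add_defect (p := p) hB hχ
  have e0 := H42.factorization_degree_add_defect (p := p) hB hχ₀
  rw [h0, add_zero] at e0
  have hp : (p : ℤ) ≠ 0 := Int.natCast_ne_zero.2 (Fact.out : p.Prime).ne_zero
  set d := (Cfsg.charDegree (χ₀ : G → ℂ)).factorization p with hd0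
  have hdiv : (p : ℤ) ^ (d + 1) ∣ (Cfsg.charDegree (χ : G → ℂ) : ℤ) := by
    exact_mod_cast (pow_dvd_pow p (show d + 1 ≤ (Cfsg.charDegree (χ : G → ℂ)).factorization p by
      omega)).trans (Nat.ordProj_dvd _ p)
  have h1 : (p : ℤ) ^ (d + 1) ∣ a * (Cfsg.charDegree (χ₀ : G → ℂ) : ℤ) := by
    have h2 := (Int.ModEq.of_dvd (pow_dvd_pow (p : ℤ) (show d + 1 ≤ (Nat.card G).factorization p by
      omega)) h).dvd
    have h3 := dvd_sub (dvd_mul_of_dvd_right hdiv b) h2
    rwa [sub_sub_cancel] at h3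
  obtain ⟨u, hu⟩ := Nat.ordProj_dvd (Cfsg.charDegree (χ₀ : G → ℂ)) p
  rw [← hd0] at hu
  rw [hu, Nat.cast_mul, Nat.cast_pow, ← mul_assoc, mul_comm a, mul_assoc, pow_succ,
    mul_dvd_mul_iff_left (pow_ne_zero _ hp)] at h1
  rcases (Nat.prime_iff_prime_int.1 Fact.out).dvd_or_dvd h1 with h4 | h4
  · exact ha h4
  · refine Nat.pow_succ_factorization_not_dvd (H42.charDegree_pos χ₀).ne' (Fact.out : p.Prime) ?_
    rw [← hd0, hu, pow_succ]
    exact mul_dvd_mul_left _ (Int.natCast_dvd_natCast.1 h4)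

end Cfsg.Agent.H20.Cyclic
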