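import Cfsg.Agent.H57.Cyclic.Values
import Cfsg.Agent.H20.Cyclic.Relation
import Cfsg.Agent.H22.PairExtra
import Cfsg.Agent.H22.PairPiKernel

/-!
# The signed relation of a block with cyclic defect group

From the shape of the decomposition numbers: the values on regular elements of the exceptional
characters, the congruences of the degrees and the vanishing of the heights.
-/

set_option autoImplicit false
set_option linter.unusedSectionVars false

open scoped ComplexConjugate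

namespace Cfsg.Agent.H20.Cyclic

open Cfsg
open Cfsg.Agent.H22 (IsMaxEl el elTop pairStab cS cj CarriesInto dpart conjSet)
open Cfsg.Agent.H41 (ResField)
open Cfsg.Agent.H40.StarTrace (CZ)
open Cfsg.Agent.H42 (blockFinset mem_blockFinset)
open Cfsg.Agent.H57.Cyclic (dec cb cdeg dv Shape orbitSums inertAut coef)

universe u

/-- The stabiliser of the block of the centraliser, read from the conjugates of its members. -/
theorem eq_pairStab_of_forall {G : Type u} [Group G] [Finite G] {M : Ideal Cfsg.AlgInt}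
    [M.IsMaximal] {D T : Subgroup G}
    {b : Set (Cfsg.IrrCharacter (Subgroup.centralizer (D : Set G)))} (hb : Cfsg.IsPBlock M b)
    (hT : ∀ g : G, g ∈ T ↔ (g ∈ Subgroup.normalizer (D : Set G) ∧ ∀ θ ∈ b,
      ∀ θ' : Cfsg.IrrCharacter (Subgroup.centralizer (D : Set G)),
        (∀ h h' : Subgroup.centralizer (D : Set G), (h' : G) = g * h * g⁻¹ →
          (θ' : Subgroup.centralizer (D : Set G) → ℂ) h' =
            (θ : Subgroup.centralizer (D : Set G) → ℂ) h) → θ' ∈ b)) :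
    T = pairStab D (el M (Subgroup.centralizer (D : Set G)) b) := by
  refine H22.eq_pairStab hb fun g => (hT g).trans (and_congr_right fun hg => ?_)
  have hgC := H22.normalizer_le_normalizer_centralizer D hg
  set C := Subgroup.centralizer (D : Set G)
  constructor
  · intro h
    refine ⟨hgC, fun θ hθ => ?_⟩
    have hC : cS g C = C := H22.cS_eq_self hgC
    have hrel : Cfsg.IsConjCharOf C g (θ : C → ℂ)
        (H43.irrCongr (H22.conjEquiv g C C hC).symm θ : C → ℂ) := by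
      intro k k' hk
      rw [H43.irrCongr_apply]
      exact congrArg (θ : C → ℂ) (Subtype.ext (show g⁻¹ * (k' : G) * g = (k : G) by rw [hk]; group))
    exact ⟨_, h θ hθ _ hrel, hrel⟩
  · rintro ⟨-, h⟩ θ hθ θ' hrel
    obtain ⟨χ', hχ', hc⟩ := h θ hθ
    rwa [show θ' = χ' from Subtype.ext (funext fun k' => by
      have hk : g⁻¹ * (k' : G) * g ∈ C :=
        (Subgroup.mem_normalizer_iff'.1 hgC (g⁻¹ * (k' : G))).2 (by simp)
      exact (hrel ⟨_, hk⟩ k' (by group)).trans (hc ⟨_, hk⟩ k' (by group)).symm)]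

variable {G : Type u} [Group G] [Fintype G] {p : ℕ} [Fact p.Prime] {M : Ideal Cfsg.AlgInt}
  [M.IsMaximal] [CharP (ResField M) p] {B : Set (Cfsg.IrrCharacter G)} {P : Subgroup G}
  {e : MonoidAlgebra (ResField M) G}

/-- The pair of a block inducing `B` from the centraliser of an abelian defect group is maximal. -/
theorem isMaxEl_of_induced (hM : Cfsg.IsPModular p M) (hB : Cfsg.IsPBlock M B)
    (hPD : Cfsg.IsDefectGroup p M B P) (hab : ∀ x ∈ P, ∀ y ∈ P, x * y = y * x)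
    {c : Set (Cfsg.IrrCharacter (Subgroup.centralizer (P : Set G)))}
    (hc : Cfsg.IsInducedBlock M (Subgroup.centralizer (P : Set G)) c B) :
    IsMaxEl p ⊤ (elTop M B) (P, el M (Subgroup.centralizer (P : Set G)) c) := by
  have hS := H22.split M G
  have hPp : IsPGroup p P := H40.isPGroup_of_isDefectGroup hPD
  have hPC : P ≤ Subgroup.centralizer (P : Set G) := fun y hy =>
    Subgroup.mem_centralizer_iff.2 fun q hq => hab q hq y hy
  set g := el M (Subgroup.centralizer (P : Set G)) c with hg_def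
  have hg : H22.IsBlockEl (Subgroup.centralizer (P : Set G)) g := H22.isBlockEl_el hc.1
  have hgb : H22.Below (elTop M B) (P, g) := H22.below_elTop_of_induced hc hPp hPC le_rfl hg
    (show H22.cut _ g * g = g by rw [H22.cut_of_supp hg.cent.supp, hg.idem])
  have hb := H22.isBlockEl_elTop hB
  exact H22.isMaxEl_of_isDefEl (a := (P, g)) ⟨le_top, hPp, by rw [H22.cen_top]; exact hg⟩ hgb
    ((H22.isDefectGroup_top_iff hM hB).1 hPD)

variable (hM : Cfsg.IsPModular p M) (hB : Cfsg.IsPBlock M B)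
  (hm : IsMaxEl p ⊤ (elTop M B) (P, e)) (hcyc : IsCyclic P)

include hM hB hm hcyc

/-- Members of the block with proportional decomposition numbers are proportional on the
nontrivial `p`-elements. -/
theorem eq_on_pElements {χ φ : Cfsg.IrrCharacter G} (hχ : χ ∈ B) (hφ : φ ∈ B) (a b : ℂ)
    (h : ∀ v : {v : P // v ≠ 1}, a * dv p M P e χ v = b * dv p M P e φ v) {x : G} (hx1 : x ≠ 1)
    (hx : ∃ j : ℕ, orderOf x = p ^ j) :
    a * (χ : G → ℂ) x = b * (φ : G → ℂ) x := by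
  classical
  have h1 : ¬ p ∣ orderOf (1 : CZ x) := by simpa using (Fact.out : p.Prime).not_dvd_one
  have hχc := H26.irr_isClassFunction χ
  have hφc := H26.irr_isClassFunction φ
  have sx : ∀ f : G → ℂ, Cfsg.IsClassFunction G f →
      ∑ c ∈ H40.StarNorm.secBlocks M x, H40.StarNorm.secPart f x c 1 = f x := fun f hf => by
    simpa using H40.StarNorm.sum_secPart (M := M) hf x 1
  rw [← sx _ hχc, ← sx _ hφc, Finset.mul_sum, Finset.mul_sum]
  refine Finset.sum_congr rfl fun c hc => ?_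
  have hc' := H40.StarNorm.mem_secBlocks.1 hc
  by_cases hy : ∃ y, CarriesInto p (P, e) x (el M (CZ x) c) y
  · obtain ⟨y, hy⟩ := hy
    have hv : y * x * y⁻¹ ∈ P := by
      have h2 := hy.le
      rw [H40.StarTrace.cS_zpowers] at h2
      exact Subgroup.zpowers_le.1 h2
    have hv1 : y * x * y⁻¹ ≠ 1 := fun h2 => hx1 (by
      have := congrArg (fun z => y⁻¹ * z * y) h2
      simpa [mul_assoc] using this)
    have hz := H40.StarTrace.cS_CZ y x
    have heq : conjSet y _ _ hz c = cb p M P e (y * x * y⁻¹) := by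
      refine H57.Cyclic.cb_unique hM hB hm hcyc hv (H22.isPBlock_conjSet hz hc')
        (H57.Cyclic.carries_one_iff.2 ?_)
      rw [H22.el_conjSet, ← H40.StarTrace.cS_zpowers]
      exact hy
    have hd0 := (H57.Cyclic.cb_local hM hB hm hcyc hv hv1).2.2.2.1
    have key : ∀ f : G → ℂ, Cfsg.IsClassFunction G f →
        H40.StarNorm.secPart f x c 1 =
          dec p M P e f (y * x * y⁻¹) * cdeg p M P e (y * x * y⁻¹) := fun f hf => by
      rw [← H57.Cyclic.dpart_eq_secPart hf, OneMemClass.coe_one, mul_one,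
        ← H22.dpart_conjSet hf y hz c x, heq, dec, div_mul_cancel₀ _ hd0]
    have hd := h ⟨⟨_, hv⟩, fun h2 => hv1 (congrArg Subtype.val h2)⟩
    simp only [dv] at hd
    rw [key _ hχc, key _ hφc, ← mul_assoc, ← mul_assoc, hd]
  · have z : ∀ ψ : Cfsg.IrrCharacter G, ψ ∈ B →
        H40.StarNorm.secPart (ψ : G → ℂ) x c 1 = 0 := fun ψ hψ =>
      (H40.StarNorm.secPart_eq_zero_or_carries hM hB hm hψ hx hc' (s := 1) h1).resolve_right hy
    rw [z χ hχ, z φ hφ, mul_zero, mul_zero]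

variable [Fintype P]

open scoped Classical in
/-- The signed relation on regular elements. -/
theorem shape_relation {γ : {x : P // x ≠ 1} → ℂ}
    {X : Set (Cfsg.IrrCharacter G)} {d : Cfsg.IrrCharacter G → ℤ} {d₀ : ℤ} {i₀ : ℕ}
    (hS : Shape (inertAut P e) i₀ B (fun χ v => γ v * dv p M P e χ v) X d d₀)
    {ψ : Cfsg.IrrCharacter G} (hψ : ψ ∈ B \ X) {s : G} (hs : ¬ p ∣ orderOf s) :
    (d₀ : ℂ) * (ψ : G → ℂ) s =
      ∑ χ ∈ (blockFinset B).filter (· ∈ X), (d χ : ℂ) * (χ : G → ℂ) s := by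
  classical
  have := H57.Cyclic.isMulComm hM hB hm hcyc
  have hfree : ∀ α ∈ inertAut P e, ∀ v : P, v ≠ 1 → α v = v → α = 1 :=
    fun α hα v hv h => H57.Cyclic.inertAut_fixed hM hB hm hcyc hα hv h
  let F : Cfsg.IrrCharacter G → {x : P // x ≠ 1} → ℂ :=
    fun φ x => (d₀ : ℂ) * (γ x * dv p M P e φ x)
  have hF : Set.BijOn F (B \ X) (orbitSums (inertAut P e)) := hS.rest
  have hsq : (d₀ : ℂ) * (d₀ : ℂ) = 1 := by rcases hS.sign₀ with h | h <;> simp [h]
  set S := ∑ χ ∈ (blockFinset B).filter (· ∈ X), (d χ : ℂ) * (χ : G → ℂ) s with hSdef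
  set Y := (blockFinset B).filter (fun χ => χ ∉ X) with hY
  have hmY : ∀ φ ∈ Y, φ ∈ B \ X := fun φ hφ =>
    ⟨mem_blockFinset.1 (Finset.mem_filter.1 hφ).1, (Finset.mem_filter.1 hφ).2⟩
  have h0 : ∀ v : {x : P // x ≠ 1},
      S * (1 : ℂ) + ∑ φ ∈ Y, ((d₀ : ℂ) * (φ : G → ℂ) s) * F φ v = 0 := fun v => by
    have h := H57.Cyclic.sum_char_mul_dv hM hB hm hcyc hs v
    rw [← Finset.sum_filter_add_sum_filter_not (blockFinset B) (· ∈ X)] at h
    have h' := congrArg (γ v * ·) h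
    simp only [mul_add, mul_zero, Finset.mul_sum] at h'
    rw [← h', mul_one, hSdef]
    congr 1
    · refine Finset.sum_congr rfl fun χ hχ => ?_
      have hc : γ v * dv p M P e χ v = (d χ : ℂ) :=
        congrFun (hS.const χ (Finset.mem_filter.1 hχ).2) v
      rw [← hc]
      ring
    · refine Finset.sum_congr rfl fun φ _ => ?_
      linear_combination ((φ : G → ℂ) s * (γ v * dv p M P e φ v)) * hsq
  -- read the coefficient at a representative
  have hrep : ∀ i j : orbitSums (inertAut P e),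
      coef i.1 (H57.Cyclic.rep j) = if i = j then 1 else 0 := fun i j => by
    rw [(H57.Cyclic.rep_spec i).2]
    rw [show H57.Cyclic.orbitFun (inertAut P e) (H57.Cyclic.rep i) = fun y : {x : P // x ≠ 1} =>
      ∑ α : inertAut P e,
        ((((H57.Cyclic.rep i).comp (α : MulAut P).toMonoidHom) (y : P) : ℂˣ) : ℂ) from
          funext fun _ => Finset.sum_congr (by ext; simp) fun _ _ => rfl,
      H57.Cyclic.coef_sum]
    rw [Finset.sum_congr rfl (g := fun α : inertAut P e =>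
      if (i, α) = (j, (1 : inertAut P e)) then (1 : ℂ) else 0) fun α _ => ?_]
    · by_cases hij : i = j <;> simp [hij, Prod.mk.injEq]
    · rw [H57.Cyclic.coef_linear,
        if_neg (H57.Cyclic.comp_ne_one (H57.Cyclic.rep_spec i).1 _), sub_zero]
      refine if_congr ⟨fun h => (H57.Cyclic.reps_bijective hfree).1 (Subtype.ext ?_),
        fun h => ?_⟩ rfl rfl
      · exact h.symm.trans (MonoidHom.ext fun _ => rfl)
      · obtain ⟨rfl, rfl⟩ := Prod.mk.inj h
        exact MonoidHom.ext fun _ => rfl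
  let j : orbitSums (inertAut P e) := ⟨F ψ, hF.mapsTo hψ⟩
  have hne := (H57.Cyclic.rep_spec j).1
  have hone : coef (fun _ : {x : P // x ≠ 1} => (1 : ℂ)) (H57.Cyclic.rep j) = -1 := by
    have h := H57.Cyclic.coef_linear (1 : P →* ℂˣ) (H57.Cyclic.rep j)
    simpa [hne] using h
  have hzero : coef (fun _ : {x : P // x ≠ 1} => (0 : ℂ)) (H57.Cyclic.rep j) = 0 := by simp [coef]
  have h2 : coef (fun v => S * (1 : ℂ) + ∑ φ ∈ Y, ((d₀ : ℂ) * (φ : G → ℂ) s) * F φ v)
      (H57.Cyclic.rep j) = 0 := by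
    simp only [h0]
    exact hzero
  rw [H57.Cyclic.coef_add, H57.Cyclic.coef_sum, H57.Cyclic.coef_smul, hone,
    Finset.sum_eq_single ψ] at h2
  · rw [H57.Cyclic.coef_smul, show coef (F ψ) (H57.Cyclic.rep j) = 1 from
      (hrep j j).trans (if_pos rfl)] at h2
    linear_combination h2
  · intro φ hφ hne'
    rw [H57.Cyclic.coef_smul, show coef (F φ) (H57.Cyclic.rep j) = 0 from
      (hrep ⟨F φ, hF.mapsTo (hmY φ hφ)⟩ j).trans (if_neg fun h =>
        hne' (hF.injOn (hmY φ hφ) hψ (congrArg Subtype.val h))), mul_zero]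
  · exact fun h => absurd (Finset.mem_filter.2 ⟨mem_blockFinset.2 hψ.1, hψ.2⟩) h

/-- The relation, the congruences of degrees and the heights, from the shape. -/
theorem shape_degrees {γ : {x : P // x ≠ 1} → ℂ} (hγ : ∀ v, γ v * conj (γ v) = 1)
    {X : Set (Cfsg.IrrCharacter G)} {d : Cfsg.IrrCharacter G → ℤ} {d₀ : ℤ} {i₀ : ℕ}
    (hS : Shape (inertAut P e) i₀ B (fun χ v => γ v * dv p M P e χ v) X d d₀) :
    (∀ χ ∈ X, ∀ χ' ∈ X, d χ * (Cfsg.charDegree (χ : G → ℂ) : ℤ) ≡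
      d χ' * (Cfsg.charDegree (χ' : G → ℂ) : ℤ) [ZMOD (p : ℤ) ^ (Nat.card G).factorization p]) ∧
    ∀ ψ ∈ B \ X, ∀ χ ∈ X, (Cfsg.charDegree (ψ : G → ℂ) : ℤ) ≡
      d₀ * (i₀ : ℤ) * d χ * (Cfsg.charDegree (χ : G → ℂ) : ℤ)
        [ZMOD (p : ℤ) ^ (Nat.card G).factorization p] := by
  classical
  have hγ0 : ∀ v, γ v ≠ 0 := fun v h => by simpa [h] using hγ v
  have hsq : ∀ χ ∈ X, (d χ : ℂ) * (d χ : ℂ) = 1 := fun χ hχ => by
    rcases hS.sign χ hχ with h | h <;> simp [h]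
  have hX : ∀ χ ∈ X, ∀ χ' ∈ X, d χ * (Cfsg.charDegree (χ : G → ℂ) : ℤ) ≡
      d χ' * (Cfsg.charDegree (χ' : G → ℂ) : ℤ) [ZMOD (p : ℤ) ^ (Nat.card G).factorization p] :=
    fun χ hχ χ' hχ' => modEq_of_eq_on_pElements χ χ' _ _ fun x hx1 hx =>
      eq_on_pElements hM hB hm hcyc (hS.subset hχ) (hS.subset hχ') _ _ (fun v => by
        have h1 : γ v * dv p M P e χ v = (d χ : ℂ) := congrFun (hS.const χ hχ) v
        have h2 : γ v * dv p M P e χ' v = (d χ' : ℂ) := congrFun (hS.const χ' hχ') v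
        refine mul_left_cancel₀ (hγ0 v) ?_
        linear_combination (d χ : ℂ) * h1 - (d χ' : ℂ) * h2 + hsq χ hχ - hsq χ' hχ') hx1 hx
  refine ⟨hX, fun ψ hψ χ hχ => ?_⟩
  have h := shape_relation hM hB hm hcyc hS hψ (s := (1 : G))
    (by simpa using (Fact.out : p.Prime).not_dvd_one)
  simp only [H42.irr_one_eq] at h
  set Xf := (blockFinset B).filter (· ∈ X) with hXf
  have hcard : Xf.card = i₀ := by
    rw [← hS.card, ← Set.ncard_coe_finset]
    congr 1
    ext φ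
    simp only [hXf, Finset.coe_filter, mem_blockFinset, Set.mem_ofPred_eq]
    exact ⟨fun h => h.2, fun h => ⟨hS.subset h, h⟩⟩
  have hz : d₀ * (Cfsg.charDegree (ψ : G → ℂ) : ℤ) =
      ∑ φ ∈ Xf, d φ * (Cfsg.charDegree (φ : G → ℂ) : ℤ) := by exact_mod_cast h
  set t := d χ * (Cfsg.charDegree (χ : G → ℂ) : ℤ) with ht
  have hdvd : (p : ℤ) ^ (Nat.card G).factorization p ∣
      ∑ φ ∈ Xf, (t - d φ * (Cfsg.charDegree (φ : G → ℂ) : ℤ)) :=
    Finset.dvd_sum fun φ hφ => (hX φ (Finset.mem_filter.1 hφ).2 χ hχ).dvd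
  rw [Finset.sum_sub_distrib, Finset.sum_const, hcard, nsmul_eq_mul, ← hz] at hdvd
  refine Int.modEq_iff_dvd.2 ?_
  have hs2 : d₀ * d₀ = 1 := by rcases hS.sign₀ with h | h <;> simp [h]
  rw [show d₀ * (i₀ : ℤ) * d χ * (Cfsg.charDegree (χ : G → ℂ) : ℤ) -
      (Cfsg.charDegree (ψ : G → ℂ) : ℤ) =
      d₀ * ((i₀ : ℤ) * t - d₀ * (Cfsg.charDegree (ψ : G → ℂ) : ℤ)) by
    rw [ht]; linear_combination (Cfsg.charDegree (ψ : G → ℂ) : ℤ) * hs2]
  exact hdvd.mul_left d₀

/-- All heights vanish. -/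
theorem shape_heights {γ : {x : P // x ≠ 1} → ℂ} (hγ : ∀ v, γ v * conj (γ v) = 1)
    {X : Set (Cfsg.IrrCharacter G)} {d : Cfsg.IrrCharacter G → ℤ} {d₀ : ℤ} {i₀ : ℕ}
    (hS : Shape (inertAut P e) i₀ B (fun χ v => γ v * dv p M P e χ v) X d d₀)
    (hi : ¬ p ∣ i₀) (hd : 0 < Cfsg.blockDefect p B) {χ : Cfsg.IrrCharacter G} (hχ : χ ∈ B) :
    Cfsg.blockHeight p B (χ : G → ℂ) = 0 := by
  obtain ⟨χ₀, hχ₀, h0, -⟩ := H42.exists_height_zero (p := p) hB
  obtain ⟨hXX, hYX⟩ := shape_degrees hM hB hm hcyc hγ hS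
  have hp : ¬ (p : ℤ) ∣ (i₀ : ℤ) := fun h => hi (Int.natCast_dvd_natCast.1 h)
  have hpm : Prime (p : ℤ) := Nat.prime_iff_prime_int.1 Fact.out
  have hsign : ∀ z : ℤ, z = 1 ∨ z = -1 → ¬ (p : ℤ) ∣ z := fun z hz h => by
    rcases hz with rfl | rfl
    · exact hpm.not_dvd_one h
    · exact hpm.not_dvd_one (dvd_neg.1 h)
  by_cases hX0 : χ₀ ∈ X <;> by_cases hXχ : χ ∈ X
  · exact blockHeight_eq_zero hB hd hχ₀ h0 hχ (d χ₀) (d χ) (hsign _ (hS.sign _ hX0))
      (hXX χ₀ hX0 χ hXχ)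
  · refine blockHeight_eq_zero hB hd hχ₀ h0 hχ (d₀ * (i₀ : ℤ) * d χ₀) 1 (fun h => ?_)
      (by rw [one_mul]; exact (hYX χ ⟨hχ, hXχ⟩ χ₀ hX0).symm)
    rcases hpm.dvd_or_dvd h with h | h
    · exact (hpm.dvd_or_dvd h).elim (hsign _ hS.sign₀) hp
    · exact hsign _ (hS.sign _ hX0) h
  · exact blockHeight_eq_zero hB hd hχ₀ h0 hχ 1 (d₀ * (i₀ : ℤ) * d χ) hpm.not_dvd_one
      (by rw [one_mul]; exact hYX χ₀ ⟨hχ₀, hX0⟩ χ hXχ)
  · refine blockHeight_eq_zero hB hd hχ₀ h0 hχ 1 1 hpm.not_dvd_one ?_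
    have h1 : ¬ p ∣ orderOf (1 : G) := by simpa using (Fact.out : p.Prime).not_dvd_one
    have a := shape_relation hM hB hm hcyc hS ⟨hχ₀, hX0⟩ h1
    have b := shape_relation hM hB hm hcyc hS ⟨hχ, hXχ⟩ h1
    have hd₀ : (d₀ : ℂ) ≠ 0 := by rcases hS.sign₀ with h | h <;> simp [h]
    have hc := mul_left_cancel₀ hd₀ (a.trans b.symm)
    simp only [H42.irr_one_eq, Nat.cast_inj] at hc
    rw [hc]

end Cfsg.Agent.H20.Cyclic
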