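import Cfsg.Agent.H20.Cyclic.Layer
import Cfsg.Agent.H20.Cyclic.MatUnits
import Cfsg.Agent.H20.Cyclic.Act
import Cfsg.Agent.H43.D1.Count

/-!
# The stable top of a module at a cyclic defect pair

For a block `ε` of `C` with nilpotent central generator `π`, the quotient of `ker π^(q-1)` by the
image of `π` on the `ε`-part of a simple module is simple or zero for the stabiliser `T`.
-/

set_option autoImplicit false
set_option linter.unusedSectionVars false
set_option maxHeartbeats 400000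

namespace Cfsg.Agent.H20.Cyclic

open Module Cfsg.Agent.H22
open Cfsg.Agent.H43.D1 (IsIrred)

variable {k : Type*} [Field k] {G : Type*} [Group G] [Finite G]

/-- The local data of a cyclic defect pair. -/
structure Frame (k : Type*) [Field k] (G : Type*) [Group G] [Finite G] where
  q : ℕ
  n : ℕ
  D : Subgroup G
  C : Subgroup G
  T : Subgroup G
  N : Subgroup G
  ε : MonoidAlgebra k G
  π : MonoidAlgebra k G
  c0 : MonoidAlgebra k G
  f : Fin n → Fin n → MonoidAlgebra k G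
  D_le : D ≤ C
  C_le : C ≤ T
  T_le : T ≤ N
  T_norm : T ≤ Subgroup.normalizer (C : Set G)
  index_ne : (C.relIndex T : k) ≠ 0
  ti : ∀ g, g ∉ N → ∀ u ∈ D, g⁻¹ * u * g ∈ D → u = 1
  orth : ∀ g ∈ N, g ∉ T → ε * cj g ε = 0
  cent : IsCent C ε
  idem : ε * ε = ε
  inv_T : Inv T ε
  c0_inv : Inv D c0
  c0_trace : trUp D C c0 = ε
  eps_c0 : ε * c0 = c0
  pi_cent : IsCent C π
  eps_pi : ε * π = π
  one_lt : 1 < q
  pi_pow : π ^ q = 0
  conj_pi : ∀ t ∈ T, ∃ w, cj t π = π * w ∧ w * π = π * w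
  n_pos : 0 < n
  f_supp : ∀ i j, Supp C (f i j)
  mul_eq : ∀ i j l, f i j * f j l = f i l
  mul_ne : ∀ i j j' l, j ≠ j' → f i j * f j' l = 0
  sum_diag : ∑ i, f i i = ε
  eps_f : ∀ i j, ε * f i j = f i j
  span : ∀ a, Supp C a → ε * a = a → ∃ c : ℕ → Fin n → Fin n → k,
    a = ∑ l ∈ Finset.range q, ∑ i, ∑ j, c l i j • (π ^ l * f i j)
  ann : ∀ a, Supp C a → ε * a = a → π ^ (q - 1) * a = 0 → ∃ w, Supp C w ∧ a = π * w

namespace Frame

variable (F : Frame k G) {V : Type*} [AddCommGroup V] [Module k V] (ρ : G →* Module.End k V)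

/-- The kernel of the top power of `π` on the `ε`-part. -/
noncomputable def K : Submodule k V :=
  LinearMap.range (act ρ F.ε) ⊓ LinearMap.ker (act ρ F.π ^ (F.q - 1))

/-- The image of `π`. -/
noncomputable def J : Submodule k V := LinearMap.range (act ρ F.π)

theorem eps_apply_of_mem {v : V} (hv : v ∈ LinearMap.range (act ρ F.ε)) : act ρ F.ε v = v := by
  obtain ⟨w, rfl⟩ := hv
  rw [← Module.End.mul_apply, ← map_mul, F.idem]

theorem eps_mul_pi : act ρ F.ε * act ρ F.π = act ρ F.π := by rw [← map_mul, F.eps_pi]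

theorem J_le_range : F.J ρ ≤ LinearMap.range (act ρ F.ε) := by
  rintro _ ⟨w, rfl⟩
  exact ⟨act ρ F.π w, by rw [← Module.End.mul_apply, eps_mul_pi]⟩

theorem J_le_K : F.J ρ ≤ F.K ρ := by
  refine le_inf (F.J_le_range ρ) ?_
  rintro _ ⟨w, rfl⟩
  rw [LinearMap.mem_ker, ← Module.End.mul_apply, ← pow_succ,
    Nat.sub_add_cancel (le_of_lt F.one_lt), ← map_pow, F.pi_pow, map_zero, LinearMap.zero_apply]

theorem range_eps_inv {t : G} (ht : t ∈ F.T) {v : V} (hv : v ∈ LinearMap.range (act ρ F.ε)) :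
    ρ t v ∈ LinearMap.range (act ρ F.ε) := by
  obtain ⟨w, rfl⟩ := hv
  exact ⟨ρ t w, LinearMap.congr_fun (rho_mul_act_of_inv ρ F.inv_T ht).symm w⟩

theorem J_inv {t : G} (ht : t ∈ F.T) {v : V} (hv : v ∈ F.J ρ) : ρ t v ∈ F.J ρ := by
  obtain ⟨w, rfl⟩ := hv
  obtain ⟨u, hu, -⟩ := F.conj_pi t ht
  refine ⟨act ρ u (ρ t w), ?_⟩
  rw [← Module.End.mul_apply, ← map_mul, ← hu]
  exact LinearMap.congr_fun (rho_mul_act ρ t F.π).symm w

theorem ker_pow_inv (m : ℕ) {t : G} (ht : t ∈ F.T) {v : V} (hv : (act ρ F.π ^ m) v = 0) :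
    (act ρ F.π ^ m) (ρ t v) = 0 := by
  obtain ⟨u, hu, hcu⟩ := F.conj_pi t⁻¹ (inv_mem ht)
  have h1 : cj t⁻¹ (F.π ^ m) = u ^ m * F.π ^ m := by
    rw [map_pow, hu, ← hcu, (show Commute u F.π from hcu).mul_pow]
  have h2 : act ρ (F.π ^ m) * ρ t = ρ t * act ρ (u ^ m * F.π ^ m) := by
    rw [← h1, rho_mul_act ρ t, cj_cj_inv]
  have h3 := LinearMap.congr_fun h2 v
  rw [Module.End.mul_apply, Module.End.mul_apply, map_mul, map_pow, map_pow,
    Module.End.mul_apply, hv, map_zero, map_zero] at h3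
  rw [h3]

theorem K_inv {t : G} (ht : t ∈ F.T) {v : V} (hv : v ∈ F.K ρ) : ρ t v ∈ F.K ρ :=
  ⟨F.range_eps_inv ρ ht hv.1, F.ker_pow_inv ρ _ ht hv.2⟩

theorem pi_comm {a : MonoidAlgebra k G} (ha : Supp F.C a) : F.π * a = a * F.π :=
  F.pi_cent.comm ha

/-- A full trace over `C` maps the kernel into the image. -/
theorem trace_mem [Fintype F.C] [FiniteDimensional k V] (B : Module.End k V) {v : V}
    (hv : v ∈ F.K ρ) : (∑ c : F.C, ρ (c : G) * B * ρ (c : G)⁻¹) v ∈ F.J ρ := by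
  classical
  let bV := Module.finBasis k V
  let fl : Fin (finrank k V) → V →ₗ[k] MonoidAlgebra k G := fun i =>
    ∑ c : F.C, ((bV.coord i) ∘ₗ B ∘ₗ ρ (c : G)⁻¹).smulRight (MonoidAlgebra.single (c : G) (1 : k))
  have hfl : ∀ i w, fl i w =
      ∑ c : F.C, bV.coord i (B (ρ (c : G)⁻¹ w)) • MonoidAlgebra.single (c : G) (1 : k) :=
    fun i w => by simp [fl, LinearMap.sum_apply]
  have hsupp : ∀ i w, Supp F.C (fl i w) := fun i w => by
    rw [hfl]
    exact Supp.sum _ fun c _ => (supp_single c.2).smul _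
  have hequiv : ∀ i (a : MonoidAlgebra k G), Supp F.C a → ∀ w,
      fl i (act ρ a w) = a * fl i w := by
    intro i a ha w
    let _ : Fintype G := Fintype.ofFinite G
    have hone : ∀ y : F.C, fl i (ρ (y : G) w) = MonoidAlgebra.single (y : G) 1 * fl i w := by
      intro y
      rw [hfl, hfl, Finset.mul_sum]
      refine Fintype.sum_equiv (Equiv.mulLeft y⁻¹) _ _ fun c => ?_
      rw [mul_smul_comm, MonoidAlgebra.single_mul_single, one_mul]
      simp [mul_assoc, map_mul, Module.End.mul_apply]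
    have hrep : a = ∑ g, a.coeff g • MonoidAlgebra.single g (1 : k) := by
      apply H40.ext_coeff
      intro x
      simp [MonoidAlgebra.coeff_sum, Finsupp.single_apply]
    rw [act_eq_sum, show (∑ g, a.coeff g • ρ g) w = ∑ g, a.coeff g • ρ g w from by
      simp [LinearMap.sum_apply], map_sum]
    conv_rhs => rw [hrep, Finset.sum_mul]
    refine Finset.sum_congr rfl fun g _ => ?_
    by_cases hg : a.coeff g = 0
    · simp [hg]
    · rw [map_smul, hone ⟨g, ha g hg⟩, smul_mul_assoc]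
  have hw : ∀ i, ∃ w, fl i v = F.π * w := by
    intro i
    obtain ⟨w, -, hw⟩ := F.ann (fl i v) (hsupp i v) (by
        rw [← hequiv i F.ε F.cent.supp v, F.eps_apply_of_mem ρ hv.1]) (by
        rw [← hequiv i _ ((isCent_pow F.pi_cent _).supp) v, map_pow,
          LinearMap.mem_ker.1 hv.2, map_zero])
    exact ⟨w, hw⟩
  choose w hw using hw
  have hsum : (∑ c : F.C, ρ (c : G) * B * ρ (c : G)⁻¹) v =
      ∑ i, act ρ (fl i v) (bV i) := by
    simp only [hfl, map_sum, LinearMap.sum_apply, map_smul, act_single, one_smul,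
      LinearMap.smul_apply]
    rw [Finset.sum_comm]
    refine Finset.sum_congr rfl fun c _ => ?_
    rw [Module.End.mul_apply, Module.End.mul_apply]
    conv_lhs => rw [← bV.sum_repr (B (ρ (c : G)⁻¹ v)), map_sum]
    exact Finset.sum_congr rfl fun i _ => by rw [map_smul, Basis.coord_apply]
  rw [hsum]
  exact Submodule.sum_mem _ fun i _ => ⟨act ρ (w i) (bV i), by
    rw [← Module.End.mul_apply, ← map_mul, ← hw]⟩

/-- The quotient of the kernel by the image is simple for the stabiliser. -/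
theorem quot_simple [IsAlgClosed k] [FiniteDimensional k V] (hρ : IsIrred ρ) (W : Submodule k V)
    (hJW : F.J ρ ≤ W) (hWK : W ≤ F.K ρ) (hinv : ∀ t ∈ F.T, ∀ v ∈ W, ρ t v ∈ W) :
    W = F.J ρ ∨ W = F.K ρ := by
  classical
  let _ : Fintype G := Fintype.ofFinite G
  by_contra hcon
  push Not at hcon
  obtain ⟨hWJ, hWK'⟩ := hcon
  set Pw := act ρ F.π with hPw
  have hex : ∃ l, ¬ F.K ρ ⊓ LinearMap.ker (Pw ^ l) ≤ F.J ρ := by
    refine ⟨F.q - 1, fun h => hWJ (le_antisymm ?_ hJW)⟩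
    exact hWK.trans (le_trans (le_inf le_rfl inf_le_right) h)
  set l := Nat.find hex with hl
  have hlJ : ¬ F.K ρ ⊓ LinearMap.ker (Pw ^ l) ≤ F.J ρ := Nat.find_spec hex
  have hl0 : 0 < l := by
    rcases Nat.eq_zero_or_pos l with h | h
    · exfalso; apply hlJ; rw [h, pow_zero]; intro v hv
      have h2 := hv.2
      rw [SetLike.mem_coe, LinearMap.mem_ker, Module.End.one_apply] at h2
      rw [h2]; exact (F.J ρ).zero_mem
    · exact h
  have hlq : l ≤ F.q - 1 := Nat.find_min' hex fun h => hWJ (le_antisymm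
    (hWK.trans (le_trans (le_inf le_rfl inf_le_right) h)) hJW)
  -- the layer
  set U := (F.K ρ ⊓ LinearMap.ker (Pw ^ l)) ⊔ F.J ρ with hU
  have hUinv : ∀ t ∈ F.T, ∀ v ∈ U, ρ t v ∈ U := by
    intro t ht v hv
    rw [hU, Submodule.mem_sup] at hv ⊢
    obtain ⟨a, ha, b, hb, rfl⟩ := hv
    exact ⟨ρ t a, ⟨F.K_inv ρ ht ha.1, F.ker_pow_inv ρ l ht ha.2⟩, ρ t b, F.J_inv ρ ht hb,
      (map_add _ _ _).symm⟩
  have hUK : U ≤ F.K ρ := sup_le inf_le_left (F.J_le_K ρ)
  obtain ⟨A, hJA, hAU, hAinv, hAK, a₀, ha₀A, ha₀J⟩ : ∃ A : Submodule k V, F.J ρ ≤ A ∧ A ≤ U ∧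
      (∀ t ∈ F.T, ∀ v ∈ A, ρ t v ∈ A) ∧ ¬ F.K ρ ≤ A ∧ ∃ a ∈ A, a ∉ F.J ρ := by
    by_cases h : W ⊓ U ≤ F.J ρ
    · refine ⟨U, le_sup_right, le_rfl, hUinv, fun hKU => hWJ (le_antisymm ?_ hJW), ?_⟩
      · exact le_trans (le_inf le_rfl (hWK.trans hKU)) h
      · obtain ⟨a, ha, ha'⟩ := SetLike.not_le_iff_exists.1 hlJ
        exact ⟨a, Submodule.mem_sup_left ha, ha'⟩
    · obtain ⟨a, ha, ha'⟩ := SetLike.not_le_iff_exists.1 h
      exact ⟨W ⊓ U, le_inf hJW le_sup_right, inf_le_right,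
        fun t ht v hv => ⟨hinv t ht v hv.1, hUinv t ht v hv.2⟩,
        fun hKA => hWK' (le_antisymm hWK (hKA.trans inf_le_left)), a, ha, ha'⟩
  have hAK' : A ≤ F.K ρ := hAU.trans hUK
  -- one corner
  let i0 : Fin F.n := ⟨0, F.n_pos⟩
  let P : Fin F.n → Fin F.n → Module.End k V := fun i j => act ρ (F.f i j)
  have hPm : ∀ i j j', P i j * P j j' = P i j' := fun i j j' => by
    simp only [P, ← map_mul, F.mul_eq]
  have hPn : ∀ i j j' j'', j ≠ j' → P i j * P j' j'' = 0 := fun i j j' j'' h => by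
    simp only [P, ← map_mul, F.mul_ne i j j' j'' h, map_zero]
  have hPe : ∀ i j, act ρ F.ε * P i j = P i j := fun i j => by simp only [P, ← map_mul, F.eps_f]
  have hPπ : ∀ i j, Pw * P i j = P i j * Pw := fun i j => by
    simp only [P, hPw, ← map_mul, F.pi_comm (F.f_supp i j)]
  have hPA : ∀ i j, ∀ v ∈ A, P i j v ∈ A := fun i j v hv =>
    act_mem_of_supp ρ (F.f_supp i j) A (fun c hc => hAinv c (F.C_le hc)) hv
  have hPJ : ∀ i j, ∀ v ∈ F.J ρ, P i j v ∈ F.J ρ := fun i j v hv =>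
    act_mem_of_supp ρ (F.f_supp i j) _ (fun c hc w hw => F.J_inv ρ (F.C_le hc) hw) hv
  set M := LinearMap.range (P i0 i0) with hM
  have hPid : ∀ v ∈ M, P i0 i0 v = v := by
    rintro _ ⟨w, rfl⟩
    rw [← Module.End.mul_apply, hPm]
  have hPM : ∀ j v, P i0 j v ∈ M := fun j v => ⟨P i0 j v, by rw [← Module.End.mul_apply, hPm]⟩
  have hPwM : ∀ v ∈ M, Pw v ∈ M := by
    rintro _ ⟨w, rfl⟩
    exact ⟨Pw w, (LinearMap.congr_fun (hPπ i0 i0) w).symm⟩
  let δ : Module.End k M := Pw.restrict hPwM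
  have hδ : ∀ (m : ℕ) (v : M), ((δ ^ m) v : V) = (Pw ^ m) v := fun m v => by
    induction m with
    | zero => rfl
    | succ m ih => rw [pow_succ', pow_succ', Module.End.mul_apply, Module.End.mul_apply, ← ih]; rfl
  have hrange : ∀ v : M, (v : V) ∈ F.J ρ → v ∈ LinearMap.range δ := by
    rintro v ⟨w, hw⟩
    refine ⟨⟨P i0 i0 w, hPM i0 w⟩, Subtype.ext ?_⟩
    show Pw (P i0 i0 w) = v
    rw [← Module.End.mul_apply, hPπ, Module.End.mul_apply, hw, hPid _ v.2]
  obtain ⟨E, hEδ, hEA, hEmod⟩ := exists_layer_proj δ l hl0 (A.comap M.subtype) (fun v hv => by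
      refine hrange v ?_
      by_contra hnot
      have hv' : (Pw ^ (l - 1)) (v : V) = 0 := by
        rw [← hδ, LinearMap.mem_ker.1 hv]; rfl
      have hvK : (v : V) ∈ F.K ρ := by
        refine ⟨⟨v, ?_⟩, ?_⟩
        · conv_rhs => rw [← hPid _ v.2]
          conv_lhs => rw [← hPid _ v.2]
          rw [← Module.End.mul_apply, hPe]
        · rw [SetLike.mem_coe, LinearMap.mem_ker,
            show F.q - 1 = (F.q - 1 - (l - 1)) + (l - 1) by omega, pow_add, Module.End.mul_apply]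
          show (Pw ^ _) ((Pw ^ (l - 1)) (v : V)) = 0
          rw [hv', map_zero]
      have : l ≤ l - 1 := Nat.find_min' hex fun h => hnot (h ⟨hvK, hv'⟩)
      omega)
    (by
      rintro _ ⟨w, rfl⟩
      exact hJA ⟨(w : V), rfl⟩)
    (fun v hv => by
      obtain ⟨b, hb, d, hd, hbd⟩ := Submodule.mem_sup.1 (hAU hv)
      obtain ⟨w, rfl⟩ := hd
      refine Submodule.mem_sup.2 ⟨⟨P i0 i0 b, hPM i0 b⟩, ?_, δ ⟨P i0 i0 w, hPM i0 w⟩, ⟨_, rfl⟩, ?_⟩
      · refine LinearMap.mem_ker.2 (Subtype.ext ?_)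
        rw [hδ]
        show (Pw ^ l * P i0 i0) b = 0
        rw [((show Commute Pw (P i0 i0) from hPπ i0 i0).pow_left l).eq, Module.End.mul_apply,
          LinearMap.mem_ker.1 hb.2, map_zero]
      · refine Subtype.ext ?_
        show P i0 i0 b + Pw (P i0 i0 w) = v
        rw [← Module.End.mul_apply Pw, hPπ, Module.End.mul_apply, ← map_add]
        exact (congrArg _ hbd).trans (hPid _ v.2))
  -- spread it over the matrix units
  let E0 : Module.End k V := M.subtype ∘ₗ E ∘ₗ (P i0 i0).rangeRestrict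
  have hE0 : ∀ v, E0 v = (E ⟨P i0 i0 v, hPM i0 v⟩ : M) := fun v => rfl
  have hE0π : Pw * E0 = E0 * Pw := by
    refine LinearMap.ext fun v => ?_
    show Pw (E0 v) = E0 (Pw v)
    have h1 := congrArg Subtype.val (LinearMap.congr_fun hEδ ⟨P i0 i0 v, hPM i0 v⟩)
    rw [hE0, hE0]
    refine h1.trans (congrArg (fun z => ((E z : M) : V)) (Subtype.ext ?_))
    show Pw (P i0 i0 v) = P i0 i0 (Pw v)
    exact LinearMap.congr_fun (hPπ i0 i0) v
  set E1 : Module.End k V := ∑ i, P i i0 * E0 * P i0 i with hE1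
  have hE1A : ∀ v, E1 v ∈ A := by
    intro v
    rw [hE1, LinearMap.sum_apply]
    refine A.sum_mem fun i _ => hPA _ _ _ ?_
    rw [hE0]
    exact hEA _
  have hE1mod : ∀ a ∈ A, E1 a - a ∈ F.J ρ := by
    intro a ha
    have hsum : a = ∑ i, P i i0 (P i0 i a) := by
      simp only [← Module.End.mul_apply, hPm]
      rw [← LinearMap.sum_apply]
      simp only [P]
      rw [← map_sum, F.sum_diag, F.eps_apply_of_mem ρ (hAK' ha).1]
    conv => arg 2; rw [hE1, LinearMap.sum_apply]; arg 2; rw [hsum]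
    rw [← Finset.sum_sub_distrib]
    refine Submodule.sum_mem _ fun i _ => ?_
    rw [Module.End.mul_apply, Module.End.mul_apply, ← map_sub]
    refine hPJ _ _ _ ?_
    rw [hE0]
    have hfix : (⟨P i0 i0 (P i0 i a), hPM i0 _⟩ : M) = ⟨P i0 i a, hPM i a⟩ :=
      Subtype.ext (hPid _ (hPM i a))
    rw [hfix]
    obtain ⟨w, hw⟩ := hEmod ⟨P i0 i a, hPM i a⟩ (hPA i0 i a ha)
    exact ⟨(w : V), congrArg Subtype.val hw⟩
  have hE1e : act ρ F.ε * E1 = E1 := by
    rw [hE1, Finset.mul_sum]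
    exact Finset.sum_congr rfl fun i _ => by rw [← mul_assoc, ← mul_assoc, hPe]
  have hE1π : Pw * E1 = E1 * Pw := by
    rw [hE1, Finset.mul_sum, Finset.sum_mul]
    refine Finset.sum_congr rfl fun i _ => ?_
    rw [← mul_assoc, ← mul_assoc, hPπ, mul_assoc (P i i0) Pw, hE0π, mul_assoc _ _ Pw, ← hPπ]
    simp only [mul_assoc]
  have hPE : ∀ a b, P a b * E1 = P a i0 * E0 * P i0 b := by
    intro a b
    rw [hE1, Finset.mul_sum, Finset.sum_eq_single b]
    · rw [← mul_assoc, ← mul_assoc, hPm]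
    · intro i _ hi
      rw [← mul_assoc, ← mul_assoc, hPn a b i i0 (Ne.symm hi), zero_mul, zero_mul]
    · exact fun hh => absurd (Finset.mem_univ _) hh
  have hEP : ∀ a b, E1 * P a b = P a i0 * E0 * P i0 b := by
    intro a b
    rw [hE1, Finset.sum_mul, Finset.sum_eq_single a]
    · rw [mul_assoc, hPm]
    · intro i _ hi
      rw [mul_assoc, hPn i0 i a b hi, mul_zero]
    · exact fun hh => absurd (Finset.mem_univ _) hh
  have hE1a : ∀ a : MonoidAlgebra k G, Supp F.C a → F.ε * a = a →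
      act ρ a * E1 = E1 * act ρ a := by
    intro a ha hεa
    obtain ⟨c, hc⟩ := F.span a ha hεa
    rw [hc]
    simp only [map_sum, map_smul, map_mul, map_pow, Finset.sum_mul, Finset.mul_sum,
      smul_mul_assoc, mul_smul_comm]
    refine Finset.sum_congr rfl fun m _ => Finset.sum_congr rfl fun i _ =>
      Finset.sum_congr rfl fun j _ => ?_
    show c m i j • (Pw ^ m * P i j * E1) = c m i j • (E1 * (Pw ^ m * P i j))
    rw [mul_assoc, hPE, ← hEP, ← mul_assoc, ← mul_assoc,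
      ((show Commute Pw E1 from hE1π).pow_left m).eq]
  have hE1e' : E1 * act ρ F.ε = E1 := by
    rw [← hE1a F.ε F.cent.supp F.idem, hE1e]
  have hE1C : ∀ c ∈ F.C, ρ c * E1 = E1 * ρ c := by
    intro c hc
    have h1 : F.ε * (MonoidAlgebra.single c (1 : k) * F.ε) = MonoidAlgebra.single c (1 : k) * F.ε := by
      rw [← mul_assoc, F.cent.comm (supp_single hc), mul_assoc, F.idem]
    have h2 := hE1a _ ((supp_single hc).mul F.cent.supp) h1
    rw [map_mul, act_single, one_smul] at h2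
    calc ρ c * E1 = ρ c * act ρ F.ε * E1 := by rw [mul_assoc, hE1e]
      _ = E1 * (act ρ F.ε * ρ c) := by
          rw [h2]
          congr 1
          rw [rho_mul_act_of_inv ρ F.inv_T (F.C_le hc)]
      _ = E1 * ρ c := by rw [← mul_assoc, hE1e']
  -- the transfer from the defect group
  set A0 := act ρ F.c0 * E1 with hA0
  have hA0e : act ρ F.ε * A0 = A0 := by rw [hA0, ← mul_assoc, ← map_mul, F.eps_c0]
  have hA0D : ∀ u ∈ F.D, ρ u * A0 = A0 * ρ u := by
    intro u hu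
    rw [hA0, ← mul_assoc, rho_mul_act_of_inv ρ F.c0_inv hu, mul_assoc, hE1C u (F.D_le hu),
      mul_assoc]
  let Fc : G ⧸ F.D → Module.End k V := fun c => ρ c.out * A0 * ρ c.out⁻¹
  have hFmk : ∀ g : G, Fc (QuotientGroup.mk g) = ρ g * A0 * ρ g⁻¹ := by
    intro g
    obtain ⟨u, hu⟩ := QuotientGroup.mk_out_eq_mul F.D g
    simp only [Fc, hu, map_mul, mul_inv_rev]
    calc ρ g * ρ (u : G) * A0 * (ρ (u : G)⁻¹ * ρ g⁻¹)
        = ρ g * (ρ (u : G) * A0) * ρ (u : G)⁻¹ * ρ g⁻¹ := by simp only [mul_assoc]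
      _ = _ := by rw [hA0D _ u.2]; simp only [mul_assoc]; rw [← mul_assoc (ρ (u : G)), conj_comp_inv, one_mul]
  have hFact : ∀ (g : G) (c : G ⧸ F.D), Fc (g • c) = ρ g * Fc c * ρ g⁻¹ := by
    intro g c
    induction c using QuotientGroup.induction_on with
    | H x =>
      show Fc (QuotientGroup.mk (g * x)) = _
      rw [hFmk, hFmk, map_mul, mul_inv_rev, map_mul]
      simp only [mul_assoc]
  set θ : Module.End k V := ∑ c : G ⧸ F.D, Fc c with hθ
  have hθc : ∀ g, ρ g * θ = θ * ρ g := by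
    intro g
    have h : ρ g * θ * ρ g⁻¹ = θ := by
      rw [hθ, Finset.mul_sum, Finset.sum_mul]
      exact Fintype.sum_equiv (MulAction.toPerm g) _ _ fun c => (hFact g c).symm
    conv_rhs => rw [← h]
    rw [mul_assoc, inv_comp_conj, mul_one]
  -- the cosets in `T`
  set S1 := Finset.univ.filter (fun c : G ⧸ F.D => c.out ∈ F.T) with hS1
  set S3 := Finset.univ.filter (fun c : G ⧸ F.D => c.out ∉ F.N) with hS3
  have hmkT : ∀ g : G, ((QuotientGroup.mk g : G ⧸ F.D).out ∈ F.T ↔ g ∈ F.T) := by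
    intro g
    obtain ⟨u, hu⟩ := QuotientGroup.mk_out_eq_mul F.D g
    rw [hu]
    exact Subgroup.mul_mem_cancel_right _ (F.C_le (F.D_le u.2))
  have hmkN : ∀ g : G, ((QuotientGroup.mk g : G ⧸ F.D).out ∈ F.N ↔ g ∈ F.N) := by
    intro g
    obtain ⟨u, hu⟩ := QuotientGroup.mk_out_eq_mul F.D g
    rw [hu]
    exact Subgroup.mul_mem_cancel_right _ (F.T_le (F.C_le (F.D_le u.2)))
  let _ : Fintype (F.T ⧸ F.C.subgroupOf F.T) := Fintype.ofFinite _
  let _ : Fintype (F.C ⧸ F.D.subgroupOf F.C) := Fintype.ofFinite _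
  let _ : Fintype F.C := Fintype.ofFinite _
  have hCsum : ∑ c : F.C ⧸ F.D.subgroupOf F.C, ρ (c.out : G) * A0 * ρ (c.out : G)⁻¹ = E1 := by
    have hterm : ∀ c : F.C, ρ (c : G) * A0 * ρ (c : G)⁻¹ = act ρ (cj (c : G) F.c0) * E1 := by
      intro c
      rw [hA0, act_cj]
      simp only [mul_assoc]
      rw [← hE1C _ (inv_mem c.2)]
    rw [Finset.sum_congr rfl fun c _ => hterm c.out, ← Finset.sum_mul, ← map_sum]
    have := F.c0_trace
    rw [trUp] at this
    conv_rhs => rw [← hE1e, ← this]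
  have hT : ∑ c ∈ S1, Fc c = ∑ t : F.T ⧸ F.C.subgroupOf F.T,
      ρ (t.out : G) * E1 * ρ (t.out : G)⁻¹ := by
    rw [← Finset.sum_bij
      (fun (z : (F.T ⧸ F.C.subgroupOf F.T) × (F.C ⧸ F.D.subgroupOf F.C)) _ =>
        (QuotientGroup.mk ((z.1.out : G) * (z.2.out : G)) : G ⧸ F.D))
      (s := Finset.univ) (f := fun z =>
        ρ (z.1.out : G) * (ρ (z.2.out : G) * A0 * ρ (z.2.out : G)⁻¹) * ρ (z.1.out : G)⁻¹)
      (fun z _ => by
        rw [hS1, Finset.mem_filter]
        exact ⟨Finset.mem_univ _, (hmkT _).2 (F.T.mul_mem z.1.out.2 (F.C_le z.2.out.2))⟩)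
      (fun z _ z' _ h => by
        rw [QuotientGroup.eq] at h
        have h1 : z.1 = z'.1 := by
          rw [← QuotientGroup.out_eq' z.1, ← QuotientGroup.out_eq' z'.1, QuotientGroup.eq,
            Subgroup.mem_subgroupOf, Subgroup.coe_mul, Subgroup.coe_inv]
          have h' := F.C.mul_mem (F.C.mul_mem z.2.out.2 (F.D_le h)) (F.C.inv_mem z'.2.out.2)
          rw [show (z.2.out : G) * (((z.1.out : G) * (z.2.out : G))⁻¹ *
            ((z'.1.out : G) * (z'.2.out : G))) * (z'.2.out : G)⁻¹ =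
            (z.1.out : G)⁻¹ * (z'.1.out : G) by group] at h'
          exact h'
        refine Prod.ext h1 ?_
        rw [← QuotientGroup.out_eq' z.2, ← QuotientGroup.out_eq' z'.2, QuotientGroup.eq,
          Subgroup.mem_subgroupOf, Subgroup.coe_mul, Subgroup.coe_inv]
        rw [h1] at h
        simpa [mul_assoc] using h)
      (fun c hc => by
        rw [hS1, Finset.mem_filter] at hc
        set t : F.T := ⟨c.out, hc.2⟩
        obtain ⟨⟨w, hw⟩, hout⟩ := QuotientGroup.mk_out_eq_mul (F.C.subgroupOf F.T) t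
        have hwC : (w : G)⁻¹ ∈ F.C := inv_mem (Subgroup.mem_subgroupOf.1 hw)
        obtain ⟨⟨u, hu⟩, hout'⟩ := QuotientGroup.mk_out_eq_mul (F.D.subgroupOf F.C) (⟨_, hwC⟩ : F.C)
        refine ⟨(QuotientGroup.mk t, QuotientGroup.mk (⟨_, hwC⟩ : F.C)), Finset.mem_univ _, ?_⟩
        conv_rhs => rw [← QuotientGroup.out_eq' c]
        rw [hout, hout', QuotientGroup.eq]
        simp only [Subgroup.coe_mul, t]
        simpa [mul_assoc] using inv_mem (Subgroup.mem_subgroupOf.1 hu))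
      (fun z _ => by
        rw [hFmk, map_mul, mul_inv_rev, map_mul]
        simp only [mul_assoc]),
      Fintype.sum_prod_type]
    exact Finset.sum_congr rfl fun t _ => by dsimp only; rw [← Finset.sum_mul, ← Finset.mul_sum, hCsum]
  set E2 := ∑ t : F.T ⧸ F.C.subgroupOf F.T, ρ (t.out : G) * E1 * ρ (t.out : G)⁻¹ with hE2
  have hE2A : ∀ v, E2 v ∈ A := fun v => by
    rw [hE2, LinearMap.sum_apply]
    exact A.sum_mem fun t _ => hAinv _ t.out.2 _ (hE1A _)
  have hE2mod : ∀ a ∈ A, E2 a - (F.C.relIndex F.T : k) • a ∈ F.J ρ := by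
    intro a ha
    have hsum : (F.C.relIndex F.T : k) • a =
        ∑ t : F.T ⧸ F.C.subgroupOf F.T, ρ (t.out : G) (ρ (t.out : G)⁻¹ a) := by
      simp only [← Module.End.mul_apply, conj_comp_inv, Module.End.one_apply]
      rw [Finset.sum_const, Finset.card_univ, ← Nat.card_eq_fintype_card,
        Nat.cast_smul_eq_nsmul]
      rfl
    rw [hsum, hE2, LinearMap.sum_apply, ← Finset.sum_sub_distrib]
    refine Submodule.sum_mem _ fun t _ => ?_
    rw [Module.End.mul_apply, Module.End.mul_apply, ← map_sub]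
    exact F.J_inv ρ t.out.2 (hE1mod _ (hAinv _ (inv_mem t.out.2) _ ha))
  -- the cosets in `N` outside `T`
  have hmid : act ρ F.ε * ∑ c ∈ Finset.univ.filter (fun c : G ⧸ F.D => c.out ∈ F.N ∧ c.out ∉ F.T),
      Fc c = 0 := by
    rw [Finset.mul_sum]
    refine Finset.sum_eq_zero fun c hc => ?_
    obtain ⟨-, hN, hT'⟩ := Finset.mem_filter.1 hc
    show act ρ F.ε * (ρ c.out * A0 * ρ c.out⁻¹) = 0
    rw [← hA0e, ← mul_assoc (ρ c.out), rho_mul_act]
    simp only [← mul_assoc]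
    rw [← map_mul, F.orth _ hN hT']
    simp
  -- the free cosets
  let R : Module.End k V := ∑ c ∈ S3, Fc c
  have hS3mem : ∀ g ∈ F.N, ∀ c ∈ S3, g • c ∈ S3 := by
    intro g hg c hc
    rw [hS3, Finset.mem_filter] at hc ⊢
    refine ⟨Finset.mem_univ _, fun h => hc.2 ?_⟩
    rw [← QuotientGroup.out_eq' c] at h
    have h' : (g * c.out) ∈ F.N := (hmkN _).1 h
    exact (Subgroup.mul_mem_cancel_left _ hg).1 h'
  have hR : ∀ v ∈ F.K ρ, act ρ F.ε (R v) ∈ F.J ρ := by
    intro v hv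
    let w : G ⧸ F.D → k := fun a =>
      if (Quotient.mk (MulAction.orbitRel F.D (G ⧸ F.D)) a).out = a then 1 else 0
    have hw : ∀ a ∈ S3, ∑ u : F.D, w ((u : G) • a) = 1 := by
      intro a ha
      obtain ⟨u₀, hu₀⟩ : ∃ u₀ : F.D,
          u₀ • a = (Quotient.mk (MulAction.orbitRel F.D (G ⧸ F.D)) a).out :=
        Quotient.mk_out (s := MulAction.orbitRel F.D (G ⧸ F.D)) a
      have hrel : ∀ u : F.D, (Quotient.mk (MulAction.orbitRel F.D (G ⧸ F.D)) (u • a)) =
          Quotient.mk (MulAction.orbitRel F.D (G ⧸ F.D)) a := fun u =>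
        Quotient.sound (⟨u, rfl⟩ : (MulAction.orbitRel F.D (G ⧸ F.D)).r (u • a) a)
      rw [Finset.sum_eq_single u₀ (fun u _ hu => ?_) (fun h => absurd (Finset.mem_univ _) h)]
      · show (if _ then (1 : k) else 0) = 1
        rw [if_pos]
        show (Quotient.mk _ (u₀ • a)).out = u₀ • a
        rw [hrel, ← hu₀]
      · show (if _ then (1 : k) else 0) = 0
        rw [if_neg]
        show ¬ (Quotient.mk _ (u • a)).out = u • a
        intro h
        rw [hrel, ← hu₀] at h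
        refine hu ?_
        rw [hS3, Finset.mem_filter] at ha
        have h2 : (u₀⁻¹ * u) • a = a := by rw [mul_smul, ← h, inv_smul_smul]
        have h3 : ((u₀⁻¹ * u : F.D) : G) • a = a := h2
        rw [← QuotientGroup.out_eq' a] at h3
        rw [show ((u₀⁻¹ * u : F.D) : G) • (QuotientGroup.mk a.out : G ⧸ F.D) =
          QuotientGroup.mk (((u₀⁻¹ * u : F.D) : G) * a.out) from rfl, QuotientGroup.eq] at h3
        have h4 := F.ti a.out ha.2 _ (u₀⁻¹ * u).2 (by simpa [mul_assoc] using inv_mem h3)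
        exact (inv_mul_eq_one.1 (Subtype.ext h4)).symm
    set B := ∑ a ∈ S3, w a • Fc a with hB
    have hRB : R = ∑ u : F.D, ρ (u : G) * B * ρ (u : G)⁻¹ := by
      have hshift : ∀ u : F.D, ρ (u : G) * B * ρ (u : G)⁻¹ =
          ∑ a ∈ S3, w (((u⁻¹ : F.D) : G) • a) • Fc a := by
        intro u
        have huN : (u : G) ∈ F.N := F.T_le (F.C_le (F.D_le u.2))
        rw [hB, Finset.mul_sum, Finset.sum_mul]
        refine Finset.sum_bij' (fun a _ => (u : G) • a) (fun a _ => (u : G)⁻¹ • a)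
          (fun a ha => hS3mem _ huN a ha) (fun a ha => hS3mem _ (inv_mem huN) a ha)
          (fun a _ => inv_smul_smul _ a) (fun a _ => smul_inv_smul _ a) (fun a ha => ?_)
        rw [Subgroup.coe_inv, inv_smul_smul, hFact, mul_smul_comm, smul_mul_assoc]
      simp only [hshift]
      rw [Finset.sum_comm]
      refine Finset.sum_congr rfl fun a ha => ?_
      rw [← Finset.sum_smul]
      have : ∑ u : F.D, w (((u⁻¹ : F.D) : G) • a) = ∑ u : F.D, w ((u : G) • a) :=
        Fintype.sum_equiv (Equiv.inv F.D) _ _ fun u => rfl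
      rw [this, hw a ha, one_smul]
    have hRC : ∀ c ∈ F.C, ρ c * R = R * ρ c := by
      intro c hc
      have hcN := F.T_le (F.C_le hc)
      have h : ρ c * R * ρ c⁻¹ = R := by
        rw [show R = ∑ c ∈ S3, Fc c from rfl, Finset.mul_sum, Finset.sum_mul]
        exact Finset.sum_bij' (fun a _ => c • a) (fun a _ => c⁻¹ • a)
          (fun a ha => hS3mem _ hcN a ha) (fun a ha => hS3mem _ (inv_mem hcN) a ha)
          (fun a _ => inv_smul_smul _ a) (fun a _ => smul_inv_smul _ a)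
          (fun a _ => (hFact c a).symm)
      conv_rhs => rw [← h]
      rw [mul_assoc, inv_comp_conj, mul_one]
    have heR : act ρ F.ε * R =
        ∑ c : F.C, ρ (c : G) * (act ρ F.c0 * B) * ρ (c : G)⁻¹ := by
      have h1 : act ρ F.ε = ∑ c : F.C ⧸ F.D.subgroupOf F.C,
          ρ (c.out : G) * act ρ F.c0 * ρ (c.out : G)⁻¹ := by
        conv_lhs => rw [← F.c0_trace, trUp]
        rw [map_sum]
        simp only [act_cj]
      rw [h1, Finset.sum_mul]
      rw [← Finset.sum_bij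
        (fun (z : (F.C ⧸ F.D.subgroupOf F.C) × F.D) _ =>
          (⟨(z.1.out : G) * (z.2 : G), F.C.mul_mem z.1.out.2 (F.D_le z.2.2)⟩ : F.C))
        (s := Finset.univ) (f := fun z =>
          ρ (z.1.out : G) * (act ρ F.c0 * (ρ (z.2 : G) * B * ρ (z.2 : G)⁻¹)) *
            ρ (z.1.out : G)⁻¹)
        (fun z _ => Finset.mem_univ _)
        (fun z _ z' _ h => by
          have h' := congrArg Subtype.val h
          dsimp only at h'
          have h1 : z.1 = z'.1 := by
            rw [← QuotientGroup.out_eq' z.1, ← QuotientGroup.out_eq' z'.1, QuotientGroup.eq,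
              Subgroup.mem_subgroupOf, Subgroup.coe_mul, Subgroup.coe_inv]
            have h2 : (z.1.out : G)⁻¹ * (z'.1.out : G) = (z.2 : G) * (z'.2 : G)⁻¹ := by
              rw [inv_mul_eq_iff_eq_mul, ← mul_assoc, h', mul_inv_cancel_right]
            rw [h2]
            exact F.D.mul_mem z.2.2 (F.D.inv_mem z'.2.2)
          refine Prod.ext h1 (Subtype.ext ?_)
          rw [h1] at h'
          exact mul_left_cancel h')
        (fun c _ => by
          obtain ⟨⟨u, hu⟩, hout⟩ := QuotientGroup.mk_out_eq_mul (F.D.subgroupOf F.C) c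
          refine ⟨(QuotientGroup.mk c, ⟨(u : G)⁻¹, inv_mem (Subgroup.mem_subgroupOf.1 hu)⟩),
            Finset.mem_univ _, Subtype.ext ?_⟩
          show ((QuotientGroup.mk c : F.C ⧸ _).out : G) * (u : G)⁻¹ = c
          rw [hout, Subgroup.coe_mul, mul_inv_cancel_right])
        (fun z _ => by
          show _ = ρ ((z.1.out : G) * (z.2 : G)) * (act ρ F.c0 * B) *
            ρ ((z.1.out : G) * (z.2 : G))⁻¹
          rw [map_mul, mul_inv_rev, map_mul, ← mul_assoc (act ρ F.c0) (ρ (z.2 : G) * B),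
            ← mul_assoc (act ρ F.c0), ← rho_mul_act_of_inv ρ F.c0_inv z.2.2]
          simp only [mul_assoc]),
        Fintype.sum_prod_type]
      refine Finset.sum_congr rfl fun c _ => ?_
      dsimp only
      rw [← Finset.sum_mul, ← Finset.mul_sum, ← Finset.mul_sum, ← hRB, mul_assoc _ _ R,
        hRC _ (inv_mem c.out.2)]
      simp only [mul_assoc]
    show (act ρ F.ε * R) v ∈ F.J ρ
    rw [heR]
    exact F.trace_mem ρ _ hv
  -- the transfer is a scalar
  have hdecomp : act ρ F.ε * θ = act ρ F.ε * E2 + act ρ F.ε * R := by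
    rw [hθ, ← Finset.sum_filter_add_sum_filter_not Finset.univ (fun c : G ⧸ F.D => c.out ∈ F.T),
      ← Finset.sum_filter_add_sum_filter_not (Finset.univ.filter fun c : G ⧸ F.D => ¬ c.out ∈ F.T)
        (fun c : G ⧸ F.D => c.out ∈ F.N), mul_add, mul_add, Finset.filter_filter,
      Finset.filter_filter]
    have e2 : Finset.univ.filter (fun c : G ⧸ F.D => ¬ c.out ∈ F.T ∧ c.out ∈ F.N) =
        Finset.univ.filter (fun c : G ⧸ F.D => c.out ∈ F.N ∧ c.out ∉ F.T) :=
      Finset.filter_congr fun c _ => and_comm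
    have e3 : Finset.univ.filter (fun c : G ⧸ F.D => ¬ c.out ∈ F.T ∧ ¬ c.out ∈ F.N) = S3 :=
      Finset.filter_congr fun c _ => ⟨fun h => h.2, fun h => ⟨fun h' => h (F.T_le h'), h⟩⟩
    rw [e2, e3, hmid, zero_add, ← hS1, hT]
  have hnt := hρ.1
  obtain ⟨c, hc⟩ := Module.End.exists_eigenvalue θ
  have hscal : ∀ v, θ v = c • v := by
    rcases hρ.2 (Module.End.eigenspace θ c) (fun g v hv => by
      rw [Module.End.mem_eigenspace_iff] at hv ⊢
      rw [← Module.End.mul_apply, ← hθc, Module.End.mul_apply, hv, map_smul]) with h | h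
    · exact absurd h hc
    · intro v
      exact Module.End.mem_eigenspace_iff.1 (h ▸ Submodule.mem_top : v ∈ Module.End.eigenspace θ c)
  have key : ∀ v ∈ F.K ρ, c • v - E2 v ∈ F.J ρ := by
    intro v hv
    have h1 := LinearMap.congr_fun hdecomp v
    rw [LinearMap.add_apply, Module.End.mul_apply, Module.End.mul_apply, Module.End.mul_apply,
      hscal, map_smul, F.eps_apply_of_mem ρ hv.1,
      F.eps_apply_of_mem ρ (hAK' (hE2A v)).1] at h1
    rw [h1, add_sub_cancel_left]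
    exact hR v hv
  have hce : c = (F.C.relIndex F.T : k) := by
    by_contra hne
    have h1 := (F.J ρ).add_mem (key a₀ (hAK' ha₀A)) (hE2mod a₀ ha₀A)
    rw [sub_add_sub_cancel, ← sub_smul] at h1
    exact ha₀J (((F.J ρ).smul_mem_iff (sub_ne_zero.2 hne)).1 h1)
  refine hAK fun v hv => ?_
  have h1 : c • v ∈ A := by
    have := A.add_mem (hJA (key v hv)) (hE2A v)
    rwa [sub_add_cancel] at this
  exact (A.smul_mem_iff (hce ▸ F.index_ne)).1 h1

/-- `τ` lies in the stable top of `ρ`. -/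
def Lies {W : Type*} [AddCommGroup W] [Module k W] (τ : F.T →* Module.End k W) : Prop :=
  ∃ β : V →ₗ[k] W, (∀ v ∈ F.J ρ, β v = 0) ∧
    (∀ (t : F.T), ∀ v ∈ F.K ρ, β (ρ (t : G) v) = τ t (β v)) ∧ ∃ v ∈ F.K ρ, β v ≠ 0

/-- Two constituents of the stable tops of isomorphic simple modules are isomorphic. -/
theorem exists_intertwiner [IsAlgClosed k] [FiniteDimensional k V] {U : Type*} [AddCommGroup U]
    [Module k U] [FiniteDimensional k U] {σ : G →* Module.End k U} {W W' : Type*} [AddCommGroup W]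
    [Module k W] [AddCommGroup W'] [Module k W'] (τ : F.T →* Module.End k W)
    (τ' : F.T →* Module.End k W') (hτ : IsIrred τ) (hρ : IsIrred ρ) (hσ : IsIrred σ)
    (φ : V →ₗ[k] U) (hφ : ∀ g v, φ (ρ g v) = σ g (φ v)) (hφ0 : φ ≠ 0)
    (hl : F.Lies ρ τ) (hl' : F.Lies σ τ') :
    ∃ ψ : W →ₗ[k] W', ψ ≠ 0 ∧ ∀ t w, ψ (τ t w) = τ' t (ψ w) := by
  classical
  obtain ⟨β, hβJ, hβT, v₀, hv₀, hv₀'⟩ := hl
  obtain ⟨β', hβJ', hβT', u₀, hu₀, hu₀'⟩ := hl'
  have hbij := Cfsg.Agent.H43.D1.bijective_of_irred hρ hσ φ hφ hφ0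
  -- the kernel of `β` on `K` is `J`
  have hker : F.K ρ ⊓ LinearMap.ker β = F.J ρ := by
    rcases F.quot_simple ρ hρ (F.K ρ ⊓ LinearMap.ker β)
      (le_inf (F.J_le_K ρ) fun v hv => hβJ v hv) inf_le_left (fun t ht v hv =>
        ⟨F.K_inv ρ ht hv.1, by
          have h := hβT ⟨t, ht⟩ v hv.1
          rw [SetLike.mem_coe, LinearMap.mem_ker, h, LinearMap.mem_ker.1 hv.2, map_zero]⟩) with h | h
    · exact h
    · exfalso
      have h2 : v₀ ∈ F.K ρ ⊓ LinearMap.ker β := h.symm ▸ hv₀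
      exact hv₀' (LinearMap.mem_ker.1 h2.2)
  have hsurj : ∀ w, ∃ v ∈ F.K ρ, β v = w := by
    have himg : (F.K ρ).map β = ⊤ := by
      rcases hτ.2 ((F.K ρ).map β) (by
        rintro t _ ⟨v, hv, rfl⟩
        exact ⟨ρ (t : G) v, F.K_inv ρ t.2 hv, hβT t v hv⟩) with h | h
      · exfalso
        have h1 : β v₀ ∈ (F.K ρ).map β := ⟨v₀, hv₀, rfl⟩
        rw [h, Submodule.mem_bot] at h1
        exact hv₀' h1
      · exact h
    intro w
    have : w ∈ (F.K ρ).map β := himg ▸ Submodule.mem_top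
    exact this
  have hmapK : ∀ v, φ v ∈ F.K σ ↔ v ∈ F.K ρ := by
    intro v
    have h1 : ∀ a, φ (act ρ a v) = act σ a (φ v) := fun a => map_act φ hφ a v
    constructor
    · rintro ⟨⟨u, hu⟩, h⟩
      obtain ⟨u', rfl⟩ := hbij.2 u
      refine ⟨⟨u', hbij.1 (by rw [map_act φ hφ, hu])⟩, ?_⟩
      rw [SetLike.mem_coe, LinearMap.mem_ker] at h ⊢
      rw [← map_pow] at h ⊢
      exact hbij.1 (by rw [h1, h, map_zero])
    · rintro ⟨⟨u, hu⟩, h⟩
      refine ⟨⟨φ u, by rw [← map_act φ hφ, hu]⟩, ?_⟩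
      rw [SetLike.mem_coe, LinearMap.mem_ker] at h ⊢
      rw [← map_pow] at h ⊢
      rw [← h1, h, map_zero]
  have hmapJ : ∀ v ∈ F.J ρ, φ v ∈ F.J σ := by
    rintro _ ⟨u, rfl⟩
    exact ⟨φ u, (map_act φ hφ _ u).symm⟩
  choose sec hsec hsec' using hsurj
  have hwd : ∀ v ∈ F.K ρ, β' (φ v) = β' (φ (sec (β v))) := by
    intro v hv
    have h1 : v - sec (β v) ∈ F.K ρ ⊓ LinearMap.ker β :=
      ⟨(F.K ρ).sub_mem hv (hsec _), by rw [SetLike.mem_coe, LinearMap.mem_ker, map_sub, hsec', sub_self]⟩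
    rw [hker] at h1
    have h2 := hβJ' _ (hmapJ _ h1)
    rwa [map_sub, map_sub, sub_eq_zero] at h2
  let ψ : W →ₗ[k] W' :=
    { toFun := fun w => β' (φ (sec w))
      map_add' := fun a b => by
        have h := hwd _ ((F.K ρ).add_mem (hsec a) (hsec b))
        rw [map_add β, hsec', hsec', map_add φ, map_add β'] at h
        exact h.symm
      map_smul' := fun r a => by
        have h := hwd _ ((F.K ρ).smul_mem r (hsec a))
        rw [map_smul β, hsec', map_smul φ, map_smul β'] at h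
        exact h.symm }
  refine ⟨ψ, fun h0 => ?_, fun t w => ?_⟩
  · obtain ⟨v, rfl⟩ := hbij.2 u₀
    refine hu₀' ?_
    rw [hwd v ((hmapK v).1 hu₀)]
    exact LinearMap.congr_fun h0 (β v)
  · show β' (φ (sec (τ t w))) = τ' t (β' (φ (sec w)))
    rw [← hβT' t _ ((hmapK _).2 (hsec w)), ← hφ, hwd _ (F.K_inv ρ t.2 (hsec w)),
      hβT t _ (hsec w), hsec']

end Frame

end Cfsg.Agent.H20.Cyclic
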